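import Cfsg.Agent.H23.FieldIso

/-!
# S2125 (outer automorphisms of `E₈(q)`): definitions and exact statements of the team-project pieces (helper23)

`θ` is an automorphism of the Chevalley group `D.group F`; `U`, `V`, `H`, `B` are `D.posUnipotent F`,
`D.negUnipotent F`, `D.diagonalSubgroup F`, `D.borelSubgroup F` (subgroups of `GL D.Idx F`).
-/

set_option autoImplicit false

namespace Cfsg.Agent.H23.Stb

open Cfsg.Lie Cfsg.Agent.H23

universe u

/-- The table facts on a datum used for the canonical form `g = b n u`. -/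
structure PackS (D : ChevalleyDatum) (F : Type u) [Field F] (z η : ℕ → ℕ → ℤ) (rT w0 : List ℕ) : Prop where
  hP : PackB D F z η
  hV : SemV D F
  hTT : TabT D rT
  hL : TabL D rT
  hW : TabW D w0

variable {D : ChevalleyDatum} {F : Type u} [Field F] {z : ℕ → ℕ → ℤ}

/-- `x_r(t)` as an element of the Chevalley group. -/
def xG (hS : Sem D F z) (r : ℕ) (t : F) : ↥(D.group F) := ⟨xU hS r t, xU_mem_group hS r t⟩

/-- `h_r(t)` as an element of the Chevalley group. -/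
def hG (hS : Sem D F z) (r : ℕ) (t : F) : ↥(D.group F) := ⟨hU hS r t, wordU_mem_group hS _⟩

/-- `n_w` as an element of the Chevalley group. -/
def nWG (hS : Sem D F z) (w : List ℕ) : ↥(D.group F) :=
  ⟨nWU hS w, Subgroup.list_prod_mem _ (by
    intro x hx
    obtain ⟨i, -, rfl⟩ := List.mem_map.mp hx
    exact wordU_mem_group hS _)⟩

/-- The automorphism `y ↦ g * θ y * g⁻¹`. -/
def conjL (g : ↥(D.group F)) (θ : ↥(D.group F) ≃* ↥(D.group F)) : ↥(D.group F) ≃* ↥(D.group F) :=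
  θ.trans (MulAut.conj g)

theorem conjL_apply (g : ↥(D.group F)) (θ : ↥(D.group F) ≃* ↥(D.group F)) (y : ↥(D.group F)) :
    conjL g θ y = g * θ y * g⁻¹ := rfl

/-- `θ` maps `K ∩ G` onto `K' ∩ G`. -/
def Pres (θ : ↥(D.group F) ≃* ↥(D.group F)) (K K' : Subgroup (GL D.Idx F)) : Prop :=
  ∀ g : ↥(D.group F), ((θ g : ↥(D.group F)) : GL D.Idx F) ∈ K' ↔ (g : GL D.Idx F) ∈ K

/-- `θ` maps the root subgroup `X_r` onto the root subgroup `X_{r'}`. -/
def RootTo (hS : Sem D F z) (θ : ↥(D.group F) ≃* ↥(D.group F)) (r r' : ℕ) : Prop :=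
  (∀ t : F, ∃ t' : F, θ (xG hS r t) = xG hS r' t') ∧ (∀ t' : F, ∃ t : F, θ (xG hS r t) = xG hS r' t')

/-! ## The pieces -/

/-- **S2125-SYL**: an automorphism maps `U` to a conjugate of `U`, when `U` is a Sylow subgroup. -/
def StSyl : Prop :=
  ∀ (D : ChevalleyDatum) (F : Type u) [Field F] [Finite F] (p : ℕ) [Fact p.Prime]
    (θ : ↥(D.group F) ≃* ↥(D.group F)),
    (∃ P : Sylow p ↥(D.group F),
      (P : Subgroup ↥(D.group F)) = (D.posUnipotent F).subgroupOf (D.group F)) →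
    ∃ g : ↥(D.group F), Pres (conjL g θ) (D.posUnipotent F) (D.posUnipotent F)

/-- **S2125-W0**: `n₀ U n₀⁻¹ = V` and `n₀ V n₀⁻¹ = U` for the longest element. -/
def StW0 : Prop :=
  ∀ (D : ChevalleyDatum) (F : Type u) [Field F] (z η : ℕ → ℕ → ℤ) (rT w0 : List ℕ)
    (hC : PackS D F z η rT w0) (g : GL D.Idx F),
    (g ∈ D.posUnipotent F ↔ nWU hC.hP.sem w0 * g * (nWU hC.hP.sem w0)⁻¹ ∈ D.negUnipotent F) ∧
    (g ∈ D.negUnipotent F ↔ nWU hC.hP.sem w0 * g * (nWU hC.hP.sem w0)⁻¹ ∈ D.posUnipotent F)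

/-- **S2125-OPP**: if `θ(U) = U` then, after conjugation by some `u ∈ U`, also `θ(V) = V`. -/
def StOpp : Prop :=
  ∀ (D : ChevalleyDatum) (F : Type u) [Field F] [Finite F] (z η : ℕ → ℕ → ℤ) (rT w0 : List ℕ)
    (_ : PackS D F z η rT w0) (θ : ↥(D.group F) ≃* ↥(D.group F)),
    Pres θ (D.posUnipotent F) (D.posUnipotent F) →
    ∃ u : ↥(D.group F), Pres (conjL u θ) (D.posUnipotent F) (D.posUnipotent F) ∧
      Pres (conjL u θ) (D.negUnipotent F) (D.negUnipotent F)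

/-- **S2125-NORMU**: `N_G(U) ≤ B`. -/
def StNormU : Prop :=
  ∀ (D : ChevalleyDatum) (F : Type u) [Field F] (z η : ℕ → ℕ → ℤ) (rT w0 : List ℕ)
    (_ : PackS D F z η rT w0) (g : GL D.Idx F), g ∈ D.group F →
    (∀ u : GL D.Idx F, u ∈ D.posUnipotent F ↔ g * u * g⁻¹ ∈ D.posUnipotent F) → g ∈ D.borelSubgroup F

/-- **S2125-PAR**: an automorphism fixing `B` permutes the minimal parabolic subgroups `⟨B, n_i⟩`. -/
def StPar : Prop :=
  ∀ (D : ChevalleyDatum) (F : Type u) [Field F] (z η : ℕ → ℕ → ℤ) (hP : PackB D F z η)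
    (θ : ↥(D.group F) ≃* ↥(D.group F)),
    Pres θ (D.borelSubgroup F) (D.borelSubgroup F) →
    ∀ i < D.rank, ∃ j < D.rank,
      ((bnPair hP).parabolic {nG hP.sem i}).map θ.toMonoidHom = (bnPair hP).parabolic {nG hP.sem j}

/-- **S2125-PV**: `⟨B, n_i⟩ ∩ V = X_{-α_i}`. -/
def StPV : Prop :=
  ∀ (D : ChevalleyDatum) (F : Type u) [Field F] (z η : ℕ → ℕ → ℤ) (rT w0 : List ℕ)
    (hC : PackS D F z η rT w0) (i : ℕ), i < D.rank → ∀ v : ↥(D.group F),
    ((v : GL D.Idx F) ∈ D.negUnipotent F ∧ v ∈ (bnPair hC.hP).parabolic {nG hC.hP.sem i}) ↔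
      ∃ t : F, v = xG hC.hP.sem (D.neg (D.simple i)) t

/-- **S2125-NEG**: an automorphism fixing `U` and `V` permutes the root subgroups of the negatives of the
fundamental roots. -/
def StNeg : Prop :=
  ∀ (D : ChevalleyDatum) (F : Type u) [Field F] (z η : ℕ → ℕ → ℤ) (rT w0 : List ℕ)
    (hC : PackS D F z η rT w0) (θ : ↥(D.group F) ≃* ↥(D.group F)),
    Pres θ (D.posUnipotent F) (D.posUnipotent F) → Pres θ (D.negUnipotent F) (D.negUnipotent F) →
    ∀ i < D.rank, ∃ j < D.rank, RootTo hC.hP.sem θ (D.neg (D.simple i)) (D.neg (D.simple j))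

/-- **S2125-POS**: the same for the fundamental roots, when `w₀` maps `-α_i` to `α_i`. -/
def StPos : Prop :=
  ∀ (D : ChevalleyDatum) (F : Type u) [Field F] (z η : ℕ → ℕ → ℤ) (rT w0 : List ℕ)
    (hC : PackS D F z η rT w0) (θ : ↥(D.group F) ≃* ↥(D.group F)),
    (∀ i < D.rank, reflW D w0 (D.neg (D.simple i)) = D.simple i) →
    Pres θ (D.posUnipotent F) (D.posUnipotent F) → Pres θ (D.negUnipotent F) (D.negUnipotent F) →
    ∀ i < D.rank, ∃ j < D.rank, RootTo hC.hP.sem θ (D.simple i) (D.simple j)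

/-- **S2125-MATCH**: the two permutations agree and preserve adjacency; for a rigid diagram they are trivial. -/
def StMatch : Prop :=
  ∀ (D : ChevalleyDatum) (F : Type u) [Field F] (z η : ℕ → ℕ → ℤ) (rT w0 : List ℕ)
    (hC : PackS D F z η rT w0) (θ : ↥(D.group F) ≃* ↥(D.group F)) (adj : ℕ → ℕ → Prop),
    (∀ i < D.rank, ∃ j < D.rank, RootTo hC.hP.sem θ (D.simple i) (D.simple j)) →
    (∀ i < D.rank, ∃ j < D.rank, RootTo hC.hP.sem θ (D.neg (D.simple i)) (D.neg (D.simple j))) →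
    (∀ i < D.rank, ∀ j < D.rank, i ≠ j → ∀ t u : F,
      xU hC.hP.sem (D.simple j) u * xU hC.hP.sem (D.neg (D.simple i)) t =
        xU hC.hP.sem (D.neg (D.simple i)) t * xU hC.hP.sem (D.simple j) u) →
    (∀ i < D.rank, ∀ j < D.rank, i ≠ j →
      ((∀ t u : F, xU hC.hP.sem (D.simple i) t * xU hC.hP.sem (D.simple j) u =
        xU hC.hP.sem (D.simple j) u * xU hC.hP.sem (D.simple i) t) ↔ ¬ adj i j)) →
    (∀ π : ℕ → ℕ, (∀ i < D.rank, π i < D.rank) →
      (∀ i < D.rank, ∀ j < D.rank, π i = π j → i = j) →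
      (∀ i < D.rank, ∀ j < D.rank, i ≠ j → (adj (π i) (π j) ↔ adj i j)) → ∀ i < D.rank, π i = i) →
    ∀ i < D.rank, RootTo hC.hP.sem θ (D.simple i) (D.simple i) ∧
      RootTo hC.hP.sem θ (D.neg (D.simple i)) (D.neg (D.simple i))

/-- **S2125-ROOTMAP**: an automorphism fixing a root subgroup acts on it by an additive bijection. -/
def StRootMap : Prop :=
  ∀ (D : ChevalleyDatum) (F : Type u) [Field F] (z η : ℕ → ℕ → ℤ) (hP : PackB D F z η)
    (θ : ↥(D.group F) ≃* ↥(D.group F)) (r : ℕ), r < D.nroots → RootTo hP.sem θ r r →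
    ∃ φ : F ≃+ F, ∀ t : F, θ (xG hP.sem r t) = xG hP.sem r (φ t)

/-- **S2125-RANK1**: if `x_α(a) x_{-α}(b) x_α(a)` conjugates `X_α` into `X_{-α}` then `b = -a⁻¹`. -/
def StRank1 : Prop :=
  ∀ (D : ChevalleyDatum) (F : Type u) [Field F] (z η : ℕ → ℕ → ℤ) (rT w0 : List ℕ)
    (hC : PackS D F z η rT w0) (i : ℕ), i < D.rank → ∀ a b : F, a ≠ 0 →
    (∀ t : F, ∃ t' : F,
      (xU hC.hP.sem (D.simple i) a * xU hC.hP.sem (D.neg (D.simple i)) b * xU hC.hP.sem (D.simple i) a) *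
          xU hC.hP.sem (D.simple i) t *
          (xU hC.hP.sem (D.simple i) a * xU hC.hP.sem (D.neg (D.simple i)) b * xU hC.hP.sem (D.simple i) a)⁻¹ =
        xU hC.hP.sem (D.neg (D.simple i)) t') →
    b = -a⁻¹

/-- **S2125-PSI**: the maps on `X_{α_i}` and `X_{-α_i}` agree, commute with inversion, and `θ(h_i(a)) = h_i(φ a)`. -/
def StPsi : Prop :=
  ∀ (D : ChevalleyDatum) (F : Type u) [Field F] (z η : ℕ → ℕ → ℤ) (rT w0 : List ℕ)
    (hC : PackS D F z η rT w0) (θ : ↥(D.group F) ≃* ↥(D.group F)) (i : ℕ), i < D.rank →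
    ∀ φ ψ : F ≃+ F,
    (∀ t : F, θ (xG hC.hP.sem (D.simple i) t) = xG hC.hP.sem (D.simple i) (φ t)) →
    (∀ t : F, θ (xG hC.hP.sem (D.neg (D.simple i)) t) = xG hC.hP.sem (D.neg (D.simple i)) (ψ t)) →
    φ 1 = 1 →
    (∀ t : F, ψ t = φ t) ∧ (∀ a : F, a ≠ 0 → φ a⁻¹ = (φ a)⁻¹) ∧
      (∀ a : F, a ≠ 0 → θ (hG hC.hP.sem (D.simple i) a) = hG hC.hP.sem (D.simple i) (φ a))

/-- **S2125-MULT**: adjacent fundamental roots carry the same map, and it is multiplicative. -/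
def StMult : Prop :=
  ∀ (D : ChevalleyDatum) (F : Type u) [Field F] (z η : ℕ → ℕ → ℤ) (hP : PackB D F z η)
    (θ : ↥(D.group F) ≃* ↥(D.group F)) (i j : ℕ), i < D.rank → j < D.rank →
    z (D.simple j) (D.simple i) = -1 → ∀ φi φj : F ≃+ F,
    (∀ t : F, θ (xG hP.sem (D.simple i) t) = xG hP.sem (D.simple i) (φi t)) →
    (∀ a : F, a ≠ 0 → θ (hG hP.sem (D.simple j) a) = hG hP.sem (D.simple j) (φj a)) →
    φi 1 = 1 → (∀ a : F, a ≠ 0 → φi a⁻¹ = (φi a)⁻¹) →
    (∀ a : F, φi a = φj a) ∧ (∀ a b : F, φi (a * b) = φi a * φi b)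

/-- **S2125-DIAG**: for a unimodular Cartan matrix, `H` realises every family of scalars on the fundamental
root subgroups. -/
def StDiag : Prop :=
  ∀ (D : ChevalleyDatum) (F : Type u) [Field F] (z η : ℕ → ℕ → ℤ)
    (hP : PackB D F z η) (Ai : Fin D.rank → Fin D.rank → ℤ),
    (∀ i j, mulZ (fun i j : Fin D.rank => z (D.simple j) (D.simple i)) Ai i j = idZ i j) →
    (∀ i j, mulZ Ai (fun i j : Fin D.rank => z (D.simple j) (D.simple i)) i j = idZ i j) →
    (∀ i < D.rank, ∀ j < D.rank, z (D.simple j) (D.neg (D.simple i)) = - z (D.simple j) (D.simple i)) →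
    ∀ c : ℕ → F, (∀ i < D.rank, c i ≠ 0) →
    ∃ h ∈ D.diagonalSubgroup F, ∀ i < D.rank, ∀ t : F,
      h * xU hP.sem (D.simple i) t * h⁻¹ = xU hP.sem (D.simple i) (c i * t) ∧
      h * xU hP.sem (D.neg (D.simple i)) t * h⁻¹ = xU hP.sem (D.neg (D.simple i)) ((c i)⁻¹ * t)

/-- **S2125-FIELD**: a field automorphism acts entrywise on the Chevalley group. -/
def StField : Prop :=
  ∀ (D : ChevalleyDatum) (F : Type u) [Field F] (z : ℕ → ℕ → ℤ) (_ : Sem D F z) (σ : F ≃+* F),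
    ∃ φ : ↥(D.group F) ≃* ↥(D.group F), ∀ g : ↥(D.group F),
      ((φ g : ↥(D.group F)) : GL D.Idx F) = glMap D (σ : F →+* F) (g : GL D.Idx F)

/-- **S2125-GAL**: a field with `p ^ f` elements has exactly `f` automorphisms. -/
def StGal : Prop :=
  ∀ (F : Type u) [Field F] [Finite F] (p f : ℕ) [Fact p.Prime] [CharP F p],
    Nat.card F = p ^ f → Nat.card (F ≃+* F) = f

/-- **S2125-INN**: an inner automorphism acting on every root subgroup through one bijection `ρ` of the field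
with `ρ 1 = 1` has `ρ = id`. -/
def StInn : Prop :=
  ∀ (D : ChevalleyDatum) (F : Type u) [Field F] (z η : ℕ → ℕ → ℤ) (rT w0 : List ℕ)
    (hC : PackS D F z η rT w0) (g : GL D.Idx F), g ∈ D.group F → ∀ ρ : F ≃ F,
    (∀ r < D.nroots, ∀ t : F, g * xU hC.hP.sem r t * g⁻¹ = xU hC.hP.sem r (ρ t)) →
    ρ 1 = 1 → 0 < D.rank → ∀ t : F, ρ t = t

/-- **S2125-ASM1**: every automorphism is, up to an inner automorphism, one that maps the root subgroup of each
fundamental root and of its negative to itself, through additive bijections of the field. -/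
def StAsm1 : Prop :=
  ∀ (D : ChevalleyDatum) (F : Type u) [Field F] [Finite F] (p : ℕ) [Fact p.Prime] (z η : ℕ → ℕ → ℤ)
    (rT w0 : List ℕ) (hC : PackS D F z η rT w0) (adj : ℕ → ℕ → Prop),
    (∃ P : Sylow p ↥(D.group F),
      (P : Subgroup ↥(D.group F)) = (D.posUnipotent F).subgroupOf (D.group F)) →
    (∀ i < D.rank, reflW D w0 (D.neg (D.simple i)) = D.simple i) →
    (∀ i < D.rank, ∀ j < D.rank, i ≠ j → ∀ t u : F,
      xU hC.hP.sem (D.simple j) u * xU hC.hP.sem (D.neg (D.simple i)) t =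
        xU hC.hP.sem (D.neg (D.simple i)) t * xU hC.hP.sem (D.simple j) u) →
    (∀ i < D.rank, ∀ j < D.rank, i ≠ j →
      ((∀ t u : F, xU hC.hP.sem (D.simple i) t * xU hC.hP.sem (D.simple j) u =
        xU hC.hP.sem (D.simple j) u * xU hC.hP.sem (D.simple i) t) ↔ ¬ adj i j)) →
    (∀ π : ℕ → ℕ, (∀ i < D.rank, π i < D.rank) →
      (∀ i < D.rank, ∀ j < D.rank, π i = π j → i = j) →
      (∀ i < D.rank, ∀ j < D.rank, i ≠ j → (adj (π i) (π j) ↔ adj i j)) → ∀ i < D.rank, π i = i) →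
    ∀ θ : ↥(D.group F) ≃* ↥(D.group F), ∃ g : ↥(D.group F), ∀ i < D.rank, ∃ φ ψ : F ≃+ F,
      (∀ t : F, conjL g θ (xG hC.hP.sem (D.simple i) t) = xG hC.hP.sem (D.simple i) (φ t)) ∧
      (∀ t : F, conjL g θ (xG hC.hP.sem (D.neg (D.simple i)) t) = xG hC.hP.sem (D.neg (D.simple i)) (ψ t))

/-- **S2125-ASM2**: an automorphism mapping the root subgroup of each fundamental root and of its negative to
itself is, up to conjugation by a diagonal element, the entrywise action of a field automorphism. -/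
def StAsm2 : Prop :=
  ∀ (D : ChevalleyDatum) (F : Type u) [Field F] (z η : ℕ → ℕ → ℤ) (rT w0 : List ℕ)
    (hC : PackS D F z η rT w0) (Ai : Fin D.rank → Fin D.rank → ℤ),
    (∀ i j, mulZ (fun i j : Fin D.rank => z (D.simple j) (D.simple i)) Ai i j = idZ i j) →
    (∀ i j, mulZ Ai (fun i j : Fin D.rank => z (D.simple j) (D.simple i)) i j = idZ i j) →
    (∀ i < D.rank, ∀ j < D.rank, z (D.simple j) (D.neg (D.simple i)) = - z (D.simple j) (D.simple i)) →
    0 < D.rank →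
    (∀ i < D.rank, ∃ j < D.rank, z (D.simple j) (D.simple i) = -1) →
    (∀ P : ℕ → Prop, P 0 →
      (∀ i < D.rank, ∀ j < D.rank, z (D.simple j) (D.simple i) = -1 → P i → P j) → ∀ i < D.rank, P i) →
    (∀ a b : ↥(D.group F) →* ↥(D.group F),
      (∀ i < D.rank, ∀ t : F, a (xG hC.hP.sem (D.simple i) t) = b (xG hC.hP.sem (D.simple i) t) ∧
        a (xG hC.hP.sem (D.neg (D.simple i)) t) = b (xG hC.hP.sem (D.neg (D.simple i)) t)) → a = b) →
    ∀ θ : ↥(D.group F) ≃* ↥(D.group F),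
    (∀ i < D.rank, ∃ φ ψ : F ≃+ F,
      (∀ t : F, θ (xG hC.hP.sem (D.simple i) t) = xG hC.hP.sem (D.simple i) (φ t)) ∧
      (∀ t : F, θ (xG hC.hP.sem (D.neg (D.simple i)) t) = xG hC.hP.sem (D.neg (D.simple i)) (ψ t))) →
    ∃ (h : ↥(D.group F)) (σ : F ≃+* F), ∀ y : ↥(D.group F),
      ((conjL h θ y : ↥(D.group F)) : GL D.Idx F) = glMap D (σ : F →+* F) (y : GL D.Idx F)

end Cfsg.Agent.H23.Stb
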