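import Cfsg.Agent.H23.Struct
import Cfsg.Agent.H23.ChkG2
import Cfsg.Agent.H23.ChkB2
import Cfsg.Agent.H23.ChkD4
import Cfsg.Agent.H23.ChkF4
import Cfsg.Agent.H23.ChkE6
import Cfsg.Agent.H23.ChkE7
import Cfsg.Agent.H23.ChkE8

set_option autoImplicit false

namespace Cfsg.Agent.H23

open Cfsg.Lie

/-- The light bundle of semantic facts holds for each of the seven tabulated data. -/
theorem sem_all {F : Type*} [Field F] (D : ChevalleyDatum)
    (hD : D ∈ [chevG2, chevB2, chevD4, chevF4, chevE6, chevE7, chevE8]) : ∃ z, Sem D F z := by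
  simp only [List.mem_cons, List.not_mem_nil, or_false] at hD
  rcases hD with rfl | rfl | rfl | rfl | rfl | rfl | rfl
  exacts [⟨_, chk_G2.sem F⟩, ⟨_, chk_B2.sem F⟩, ⟨_, chk_D4.sem F⟩, ⟨_, chk_F4.sem F⟩, ⟨_, chk_E6.sem F⟩,
    ⟨_, chk_E7.sem F⟩, ⟨_, chk_E8.sem F⟩]

end Cfsg.Agent.H23
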