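import Mathlib
import Cfsg.Agent.H46.B2F3Defs

set_option autoImplicit false

/-!
# S2400, piece F3F: the relations of the pairs (long, short) at 135° for B2 over the field with three
elements
-/

namespace Cfsg.Agent.H23.B2F3

open Cfsg.Agent.H46.B2

universe u v w

/-- The sextuples `(l, s, l + s, l + 2 s, C1, C2)`, `l` long, `s` short at 135°. -/
def LSL3 : List (ℕ × ℕ × ℕ × ℕ × ℤ × ℤ) :=
  [(0, 5, 1, 3, 1, -1), (0, 6, 2, 4, -1, 1), (3, 2, 1, 0, -1, -1), (3, 6, 5, 7, 1, 1),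
    (4, 1, 2, 0, -1, 1), (4, 5, 6, 7, 1, -1), (7, 1, 5, 3, 1, 1), (7, 2, 6, 4, -1, -1)]

set_option synthInstance.maxSize 100000 in
set_option synthInstance.maxHeartbeats 0 in
theorem tabF : ∀ l ∈ [0, 3, 4, 7], ∀ s ∈ [1, 2, 5, 6], terms l s ≠ [] →
    ∃ q ∈ LSL3, (q.1 = l ∧ q.2.1 = s) := by decide +kernel

set_option synthInstance.maxSize 100000 in
set_option synthInstance.maxHeartbeats 0 in
theorem tabLS3 : ∀ q ∈ LSL3, q.1 ∈ [0, 3, 4, 7] ∧ q.2.1 ∈ [1, 2, 5, 6] ∧ q.2.2.1 ∈ [1, 2, 5, 6] ∧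
    q.2.2.2.1 ∈ [0, 3, 4, 7] ∧ q.1 < 8 ∧ q.2.1 < 8 ∧ q.2.1 ≠ q.1 ∧ q.2.1 ≠ 7 - q.1 ∧
    terms q.1 q.2.1 = [(q.2.2.1, q.2.2.2.2.1, 1, 1), (q.2.2.2.1, q.2.2.2.2.2, 1, 2)] ∧
    terms q.2.1 q.2.2.2.1 = [] ∧ terms q.2.2.1 q.2.2.2.1 = [] ∧ q.2.2.1 ≠ q.2.1 ∧
    q.2.2.1 ≠ 7 - q.2.1 ∧
    terms q.2.1 q.2.2.1 = [(q.2.2.2.1, -2 * q.2.2.2.2.2 * q.2.2.2.2.1, 1, 1)] ∧
    (q.2.2.2.2.1 = 1 ∨ q.2.2.2.2.1 = -1) ∧ (q.2.2.2.2.2 = 1 ∨ q.2.2.2.2.2 = -1) := by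
  decide +kernel

section Gen

variable {K : Type u} [Field K] {G : Type v} [Group G] {E : Type w} [Group E]
  (ρ : E →* G) (hc : ρ.ker ≤ Subgroup.center E)

theorem zero_of (Y : K → E) (hY : ∀ t u, Y (t + u) = Y t * Y u) : Y 0 = 1 := by
  have := hY 0 0
  rw [add_zero] at this
  exact mul_left_cancel (a := Y 0) (by rw [← this, mul_one])

include hc in
/-- The defect of the relation of a pair (long, short) at 135° is trivial in characteristic 3. -/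
theorem ls_rel3 (h3 : ∀ a : K, a + a + a = 0) (L : E) (YS Y1 Y2 : K → E) (α β γ : K)
    (aS : ∀ t u, YS (t + u) = YS t * YS u) (a1 : ∀ t u, Y1 (t + u) = Y1 t * Y1 u)
    (a2 : ∀ t u, Y2 (t + u) = Y2 t * Y2 u)
    (cS2 : ∀ u v, YS u * Y2 v = Y2 v * YS u) (c12 : ∀ a v, Y1 a * Y2 v = Y2 v * Y1 a)
    (hSS : ∀ a u, (Y1 a)⁻¹ * (YS u)⁻¹ * Y1 a * YS u = Y2 (γ * (-u) * a))
    (hsign : γ * α = -(2 * β))
    (g : E) (gL : g * L * g⁻¹ = L) (gS : ∀ u, g * YS u * g⁻¹ = YS (-u))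
    (g1 : ∀ a, g * Y1 a * g⁻¹ = Y1 (-a)) (g2 : ∀ v, g * Y2 v * g⁻¹ = Y2 v)
    (hρ : ∀ u, ρ ((YS u)⁻¹ * L⁻¹ * YS u * L) = ρ (Y1 (α * u) * Y2 (β * u ^ 2))) :
    ∀ u, (YS u)⁻¹ * L⁻¹ * YS u * L = Y1 (α * u) * Y2 (β * u ^ 2) := by
  have zS := zero_of YS aS
  have z1 := zero_of Y1 a1
  have z2 := zero_of Y2 a2
  obtain ⟨F, hF⟩ : ∃ F : K → E, ∀ u, F u = (YS u)⁻¹ * L⁻¹ * YS u * L := ⟨_, fun _ => rfl⟩
  obtain ⟨R, hR⟩ : ∃ R : K → E, ∀ u, R u = Y1 (α * u) * Y2 (β * u ^ 2) := ⟨_, fun _ => rfl⟩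
  have hcen : ∀ u (k : E), (F u * (R u)⁻¹) * k = k * (F u * (R u)⁻¹) := by
    intro u k
    have hmem : F u * (R u)⁻¹ ∈ Subgroup.center E := hc (by
      rw [MonoidHom.mem_ker, map_mul, map_inv, hF, hR, hρ, mul_inv_cancel])
    exact (Subgroup.mem_center_iff.mp hmem k).symm
  -- evenness
  have hinv : ∀ u, F (-u) * (R (-u))⁻¹ = F u * (R u)⁻¹ := by
    intro u
    have eF : g * F u * g⁻¹ = F (-u) := by
      rw [hF, hF, ← gS]
      nth_rewrite 3 [← gL]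
      nth_rewrite 4 [← gL]
      group
    have eR : g * R u * g⁻¹ = R (-u) := by
      rw [hR, hR]
      have e1 : α * -u = -(α * u) := by ring
      have e2 : β * (-u) ^ 2 = β * u ^ 2 := by ring
      rw [e1, e2, ← g1]
      nth_rewrite 2 [← g2 (β * u ^ 2)]
      group
    calc F (-u) * (R (-u))⁻¹ = g * (F u * (R u)⁻¹) * g⁻¹ := by rw [← eF, ← eR]; group
      _ = F u * (R u)⁻¹ * g * g⁻¹ := by rw [hcen u g]
      _ = _ := by group
  -- additivity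
  have hadd : ∀ u u', F (u + u') * (R (u + u'))⁻¹ = (F u * (R u)⁻¹) * (F u' * (R u')⁻¹) := by
    intro u u'
    have e1 : F (u + u') = (YS u')⁻¹ * F u * YS u' * F u' := by
      rw [hF, hF, hF, aS]; group
    have e2 : ∀ a, (YS u')⁻¹ * Y1 a * YS u' = Y1 a * Y2 (γ * (-u') * a) := by
      intro a
      rw [← hSS a u']; group
    have e3 : (YS u')⁻¹ * R u * YS u' = Y1 (α * u) * Y2 (γ * (-u') * (α * u)) * Y2 (β * u ^ 2) := by
      rw [hR]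
      calc (YS u')⁻¹ * (Y1 (α * u) * Y2 (β * u ^ 2)) * YS u'
          = (YS u')⁻¹ * Y1 (α * u) * (Y2 (β * u ^ 2) * YS u') := by group
        _ = (YS u')⁻¹ * Y1 (α * u) * (YS u' * Y2 (β * u ^ 2)) := by rw [cS2]
        _ = ((YS u')⁻¹ * Y1 (α * u) * YS u') * Y2 (β * u ^ 2) := by group
        _ = _ := by rw [e2]
    have e4 : (YS u')⁻¹ * R u * YS u' * R u' = R (u + u') := by
      rw [e3, hR, hR]
      calc Y1 (α * u) * Y2 (γ * (-u') * (α * u)) * Y2 (β * u ^ 2) * (Y1 (α * u') * Y2 (β * u' ^ 2))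
          = Y1 (α * u) * ((Y2 (γ * (-u') * (α * u)) * Y2 (β * u ^ 2)) * Y1 (α * u')) *
              Y2 (β * u' ^ 2) := by group
        _ = Y1 (α * u) * (Y2 (γ * (-u') * (α * u) + β * u ^ 2) * Y1 (α * u')) *
              Y2 (β * u' ^ 2) := by rw [a2]
        _ = Y1 (α * u) * (Y1 (α * u') * Y2 (γ * (-u') * (α * u) + β * u ^ 2)) *
              Y2 (β * u' ^ 2) := by rw [c12]
        _ = (Y1 (α * u) * Y1 (α * u')) * (Y2 (γ * (-u') * (α * u) + β * u ^ 2) *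
              Y2 (β * u' ^ 2)) := by group
        _ = Y1 (α * u + α * u') * Y2 (γ * (-u') * (α * u) + β * u ^ 2 + β * u' ^ 2) := by
            rw [a1, a2 (γ * (-u') * (α * u) + β * u ^ 2) (β * u' ^ 2)]
        _ = _ := by
            congr 2
            · ring
            · linear_combination (-(u * u')) * hsign
    calc F (u + u') * (R (u + u'))⁻¹
        = (YS u')⁻¹ * ((F u * (R u)⁻¹) * R u) * YS u' * ((F u' * (R u')⁻¹) * R u') *
            (R (u + u'))⁻¹ := by rw [e1]; group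
      _ = (YS u')⁻¹ * (R u * (F u * (R u)⁻¹)) * YS u' * (R u' * (F u' * (R u')⁻¹)) *
            (R (u + u'))⁻¹ := by rw [hcen u (R u), hcen u' (R u')]
      _ = (YS u')⁻¹ * R u * ((F u * (R u)⁻¹) * YS u') * R u' * (F u' * (R u')⁻¹) *
            (R (u + u'))⁻¹ := by group
      _ = (YS u')⁻¹ * R u * (YS u' * (F u * (R u)⁻¹)) * R u' * (F u' * (R u')⁻¹) *
            (R (u + u'))⁻¹ := by rw [hcen u (YS u')]
      _ = (YS u')⁻¹ * R u * YS u' * ((F u * (R u)⁻¹) * R u') * (F u' * (R u')⁻¹) *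
            (R (u + u'))⁻¹ := by group
      _ = (YS u')⁻¹ * R u * YS u' * (R u' * (F u * (R u)⁻¹)) * (F u' * (R u')⁻¹) *
            (R (u + u'))⁻¹ := by rw [hcen u (R u')]
      _ = ((YS u')⁻¹ * R u * YS u' * R u') * ((F u * (R u)⁻¹) * (F u' * (R u')⁻¹)) *
            (R (u + u'))⁻¹ := by group
      _ = R (u + u') * ((F u * (R u)⁻¹) * (F u' * (R u')⁻¹)) * (R (u + u'))⁻¹ := by rw [e4]
      _ = R (u + u') * (F u * (R u)⁻¹) * ((F u' * (R u')⁻¹) * (R (u + u'))⁻¹) := by group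
      _ = (F u * (R u)⁻¹) * R (u + u') * ((R (u + u'))⁻¹ * (F u' * (R u')⁻¹)) := by
          rw [hcen u (R (u + u')), hcen u' (R (u + u'))⁻¹]
      _ = _ := by group
  have h0 : F 0 * (R 0)⁻¹ = 1 := by
    rw [hF, hR, zS, mul_zero]
    have : (0 : K) ^ 2 = 0 := by norm_num
    rw [this, mul_zero, z1, z2]; group
  intro u
  have e2 : (F u * (R u)⁻¹) * (F u * (R u)⁻¹) = 1 := by
    have := hadd u (-u)
    rw [add_neg_cancel, h0, hinv u] at this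
    exact this.symm
  have e3 : (F u * (R u)⁻¹) * (F u * (R u)⁻¹) * (F u * (R u)⁻¹) = 1 := by
    have := hadd (u + u) u
    rw [hadd u u, h3 u, h0] at this
    exact this.symm
  rw [e2, one_mul] at e3
  have e' := mul_inv_eq_one.mp e3
  rw [hF, hR] at e'
  exact e'

end Gen

theorem three_eq_zero {K : Type u} [Field K] (hK : ∀ t : K, t = 0 ∨ t = 1 ∨ t = -1) (h2 : (2 : K) ≠ 0)
    (a : K) : a + a + a = 0 := by
  have h3 : (1 : K) + 1 + 1 = 0 := by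
    rcases hK 2 with h | h | h
    · exact absurd h h2
    · exfalso
      have : (1 : K) = 0 := by linear_combination h
      exact one_ne_zero this
    · linear_combination h
  linear_combination a * h3

/-- **S2400-F3F.** -/
theorem pF : PF.{u, v, w} := by
  intro K _ G _ E _ ρ x h Y H hSh hfix h45 hLg _ l hl s hs hne t u
  obtain ⟨q, hq, rfl, rfl⟩ := tabF l hl s hs hne
  obtain ⟨_, _, hp1, hp2, hl8, hs8, n1, n2, et, e45a, e45b, n3, n4, ess, hC1, hC2⟩ := tabLS3 q hq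
  obtain ⟨g, hg⟩ := H.hl
  have h3 := three_eq_zero H.hK H.h2
  have key := ls_rel3 ρ H.hρc h3 (Y q.1 t) (Y q.2.1) (Y q.2.2.1) (Y q.2.2.2.1)
    ((q.2.2.2.2.1 : K) * -t) ((q.2.2.2.2.2 : K) * -t) (((-2 * q.2.2.2.2.2 * q.2.2.2.2.1 : ℤ) : K))
    (hSh _ hs).2.1 (hSh _ hp1).2.1 (hLg.1 _ hp2).2
    (fun u v => h45 _ hs _ hp2 e45a (Y q.2.2.2.1 v) u v ((hLg.1 _ hp2).1 v))
    (fun a v => h45 _ hp1 _ hp2 e45b (Y q.2.2.2.1 v) a v ((hLg.1 _ hp2).1 v))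
    (by
      intro a u'
      have := hLg.2 _ hs _ hp1 n3 n4 u' a
      rw [this]
      unfold word
      rw [ess]
      simp)
    (by
      rcases hC1 with e | e <;> rw [e] <;> push_cast <;> ring)
    g (hfix _ hl g (Y q.1 t) t hg ((hLg.1 _ hl).1 t)) (fun u => (hSh _ hs).2.2 g u hg)
    (fun a => (hSh _ hp1).2.2 g a hg)
    (fun v => hfix _ hp2 g (Y q.2.2.2.1 v) v hg ((hLg.1 _ hp2).1 v))
    (by
      intro u
      simp only [map_mul, map_inv]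
      rw [(hSh _ hs).1, (hLg.1 _ hl).1, (hSh _ hp1).1, (hLg.1 _ hp2).1,
        H.hx.comm _ hl8 _ hs8 n1 n2 t u]
      unfold word
      rw [et]
      simp) u
  rw [key]
  unfold word
  rw [et]
  simp

example : PF.{u, v, w} := pF

end Cfsg.Agent.H23.B2F3
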