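import Mathlib
import Cfsg.Agent.H46.B2F3Defs
import Cfsg.Agent.H23.B2F3F

set_option autoImplicit false

/-!
# S2400, piece F3D: the lifts of the long root elements for B2 over the field with three elements
-/

namespace Cfsg.Agent.H23.B2F3

open Cfsg.Agent.H46.B2

universe u v w

/-- The quadruples `(r, s, r + s, C)`, `r`, `s` orthogonal short roots. -/
def SSL : List (ℕ × ℕ × ℕ × ℤ) := [(1, 2, 0, 2), (1, 5, 3, -2), (2, 6, 4, -2), (5, 6, 7, 2)]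

/-- The pair of short roots used to build the lift of a long root subgroup. -/
def ssOf : ℕ → ℕ × ℕ × ℤ
  | 0 => (1, 2, 2)
  | 3 => (1, 5, -2)
  | 4 => (2, 6, -2)
  | 7 => (5, 6, 2)
  | _ => (0, 0, 0)

set_option synthInstance.maxSize 100000 in
set_option synthInstance.maxHeartbeats 0 in
theorem tabSS : ∀ p ∈ SSL, p.1 ∈ [1, 2, 5, 6] ∧ p.2.1 ∈ [1, 2, 5, 6] ∧ p.2.2.1 ∈ [0, 3, 4, 7] ∧
    p.1 < 8 ∧ p.2.1 < 8 ∧ p.2.1 ≠ p.1 ∧ p.2.1 ≠ 7 - p.1 ∧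
    terms p.1 p.2.1 = [(p.2.2.1, p.2.2.2, 1, 1)] ∧ terms p.2.1 p.1 = [(p.2.2.1, -p.2.2.2, 1, 1)] ∧
    terms p.1 p.2.2.1 = [] ∧ terms p.2.1 p.2.2.1 = [] ∧ (p.2.2.2 = 2 ∨ p.2.2.2 = -2) ∧
    ssOf p.2.2.1 = (p.1, p.2.1, p.2.2.2) := by decide +kernel

set_option synthInstance.maxSize 100000 in
set_option synthInstance.maxHeartbeats 0 in
theorem tabSScases : ∀ r ∈ [1, 2, 5, 6], ∀ s ∈ [1, 2, 5, 6], (s ≠ r ∧ s ≠ 7 - r) →
    ∃ p ∈ SSL, ((p.1 = r ∧ p.2.1 = s) ∨ (p.1 = s ∧ p.2.1 = r)) := by decide +kernel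

theorem tabLong : ∀ l ∈ [0, 3, 4, 7], ∃ p ∈ SSL, p.2.2.1 = l := by decide +kernel

theorem short_not_long : ∀ q ∈ [1, 2, 5, 6], q ∉ [0, 3, 4, 7] := by decide +kernel

section Gen

variable {K : Type u} [Field K] {G : Type v} [Group G] {E : Type w} [Group E]
  (ρ : E →* G)

theorem comm_inv3 {Γ : Type*} [Group Γ] (a b : Γ) (h : a * b = b * a) : a⁻¹ * b = b * a⁻¹ := by
  calc a⁻¹ * b = a⁻¹ * (b * a) * a⁻¹ := by group
    _ = a⁻¹ * (a * b) * a⁻¹ := by rw [h]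
    _ = b * a⁻¹ := by group

/-- The lift of a long root subgroup as a commutator of lifts of two orthogonal short root subgroups. -/
theorem lg_gen (hK : ∀ t : K, t = 0 ∨ t = 1 ∨ t = -1) (A B : K → E)
    (aA : ∀ t u, A (t + u) = A t * A u) (aB : ∀ t u, B (t + u) = B t * B u)
    (c : K) (hc0 : c ≠ 0) (XL : K → G)
    (hF : ∀ a b, ρ ((B b)⁻¹ * (A a)⁻¹ * B b * A a) = XL (c * (-a) * b))
    (hcomA : ∀ (e : E) (u a : K), ρ e = XL u → A a * e = e * A a)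
    (hcomB : ∀ (e : E) (u b : K), ρ e = XL u → B b * e = e * B b) :
    ∃ Yl : K → E, (∀ v, Yl v = (B 1)⁻¹ * (A (-c⁻¹ * v))⁻¹ * B 1 * A (-c⁻¹ * v)) ∧
      (∀ v, ρ (Yl v) = XL v) ∧ (∀ v v', Yl (v + v') = Yl v * Yl v') ∧
      (∀ a b, (B b)⁻¹ * (A a)⁻¹ * B b * A a = Yl (c * (-a) * b)) ∧
      (∀ a b, (A b)⁻¹ * (B a)⁻¹ * A b * B a = Yl (-c * (-a) * b)) := by
  have zA := zero_of A aA
  have zB := zero_of B aB
  obtain ⟨F, hFd⟩ : ∃ F : K → K → E, ∀ a b, F a b = (B b)⁻¹ * (A a)⁻¹ * B b * A a :=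
    ⟨_, fun _ _ => rfl⟩
  have cA : ∀ a b a', A a' * F a b = F a b * A a' :=
    fun a b a' => hcomA (F a b) _ a' (by rw [hFd]; exact hF a b)
  have cB : ∀ a b b', B b' * F a b = F a b * B b' :=
    fun a b b' => hcomB (F a b) _ b' (by rw [hFd]; exact hF a b)
  have cAi : ∀ a b a', (A a')⁻¹ * F a b = F a b * (A a')⁻¹ :=
    fun a b a' => comm_inv3 _ _ (cA a b a')
  have cBi : ∀ a b b', (B b')⁻¹ * F a b = F a b * (B b')⁻¹ :=
    fun a b b' => comm_inv3 _ _ (cB a b b')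
  have cF : ∀ a b a' b', F a' b' * F a b = F a b * F a' b' := by
    intro a b a' b'
    rw [hFd a' b']
    calc (B b')⁻¹ * (A a')⁻¹ * B b' * A a' * F a b
        = (B b')⁻¹ * (A a')⁻¹ * B b' * (A a' * F a b) := by group
      _ = (B b')⁻¹ * (A a')⁻¹ * B b' * (F a b * A a') := by rw [cA]
      _ = (B b')⁻¹ * (A a')⁻¹ * (B b' * F a b) * A a' := by group
      _ = (B b')⁻¹ * (A a')⁻¹ * (F a b * B b') * A a' := by rw [cB]
      _ = (B b')⁻¹ * ((A a')⁻¹ * F a b) * B b' * A a' := by group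
      _ = (B b')⁻¹ * (F a b * (A a')⁻¹) * B b' * A a' := by rw [cAi]
      _ = ((B b')⁻¹ * F a b) * (A a')⁻¹ * B b' * A a' := by group
      _ = (F a b * (B b')⁻¹) * (A a')⁻¹ * B b' * A a' := by rw [cBi]
      _ = _ := by group
  have addA : ∀ a a' b, F (a + a') b = F a b * F a' b := by
    intro a a' b
    have e1 : F (a + a') b = (B b)⁻¹ * (A a')⁻¹ * B b * (F a b * A a') := by
      rw [hFd, hFd, aA]; group
    rw [e1, ← cA]
    calc (B b)⁻¹ * (A a')⁻¹ * B b * (A a' * F a b)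
        = ((B b)⁻¹ * (A a')⁻¹ * B b * A a') * F a b := by group
      _ = F a' b * F a b := by rw [← hFd]
      _ = _ := cF a b a' b
  have addB : ∀ a b b', F a (b + b') = F a b * F a b' := by
    intro a b b'
    have e1 : F a (b + b') = ((B b')⁻¹ * F a b) * (A a)⁻¹ * B b' * A a := by
      rw [hFd, hFd, aB]; group
    rw [e1, cBi, hFd a b']; group
  have F0b : ∀ b, F 0 b = 1 := by intro b; rw [hFd, zA]; group
  have Fa0 : ∀ a, F a 0 = 1 := by intro a; rw [hFd, zB]; group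
  have negA : ∀ a b, F (-a) b = (F a b)⁻¹ := by
    intro a b
    have := addA a (-a) b
    rw [add_neg_cancel, F0b] at this
    exact eq_inv_of_mul_eq_one_right this.symm
  have negB : ∀ a b, F a (-b) = (F a b)⁻¹ := by
    intro a b
    have := addB a b (-b)
    rw [add_neg_cancel, Fa0] at this
    exact eq_inv_of_mul_eq_one_right this.symm
  have key : ∀ a b, F a b = F (a * b) 1 := by
    intro a b
    rcases hK b with rfl | rfl | rfl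
    · rw [Fa0, mul_zero, F0b]
    · rw [mul_one]
    · rw [negB, mul_neg, mul_one, negA]
  refine ⟨fun v => F (-c⁻¹ * v) 1, ?_, ?_, ?_, ?_, ?_⟩
  · intro v; exact hFd _ _
  · intro v
    show ρ (F (-c⁻¹ * v) 1) = XL v
    rw [hFd, hF]
    congr 1
    field_simp
  · intro v v'
    show F (-c⁻¹ * (v + v')) 1 = F (-c⁻¹ * v) 1 * F (-c⁻¹ * v') 1
    rw [mul_add, addA]
  · intro a b
    show (B b)⁻¹ * (A a)⁻¹ * B b * A a = F (-c⁻¹ * (c * (-a) * b)) 1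
    rw [← hFd, key a b]
    congr 1
    field_simp
  · intro a b
    show (A b)⁻¹ * (B a)⁻¹ * A b * B a = F (-c⁻¹ * (-c * (-a) * b)) 1
    have e1 : (A b)⁻¹ * (B a)⁻¹ * A b * B a = (F b a)⁻¹ := by rw [hFd]; group
    rw [e1, key b a, ← negA]
    congr 1
    field_simp

end Gen

/-- **S2400-F3D.** -/
theorem pD : PD.{u, v, w} := by
  intro K _ G _ E _ ρ x h Y H hSh h45
  have gen : ∀ p ∈ SSL, ∃ Yl : K → E,
      (∀ v, Yl v = (Y p.2.1 1)⁻¹ * (Y p.1 (-(p.2.2.2 : K)⁻¹ * v))⁻¹ * Y p.2.1 1 *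
        Y p.1 (-(p.2.2.2 : K)⁻¹ * v)) ∧
      (∀ v, ρ (Yl v) = x p.2.2.1 v) ∧ (∀ v v', Yl (v + v') = Yl v * Yl v') ∧
      (∀ a b, (Y p.2.1 b)⁻¹ * (Y p.1 a)⁻¹ * Y p.2.1 b * Y p.1 a = Yl ((p.2.2.2 : K) * (-a) * b)) ∧
      (∀ a b, (Y p.1 b)⁻¹ * (Y p.2.1 a)⁻¹ * Y p.1 b * Y p.2.1 a =
        Yl (-(p.2.2.2 : K) * (-a) * b)) := by
    intro p hp
    obtain ⟨hr, hs, hl, hr8, hs8, n1, n2, et, _, e1, e2, hC, _⟩ := tabSS p hp
    have hc0 : (p.2.2.2 : K) ≠ 0 := by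
      rcases hC with e | e
      · rw [e]; push_cast; exact H.h2
      · rw [e]; push_cast; exact neg_ne_zero.mpr H.h2
    refine lg_gen ρ H.hK (Y p.1) (Y p.2.1) (hSh _ hr).2.1 (hSh _ hs).2.1 _ hc0 (x p.2.2.1) ?_ ?_ ?_
    · intro a b
      simp only [map_mul, map_inv]
      rw [(hSh _ hr).1, (hSh _ hs).1, H.hx.comm _ hr8 _ hs8 n1 n2 a b]
      unfold word
      rw [et]
      simp
    · intro e u a he; exact h45 _ hr _ hl e1 e a u he
    · intro e u b he; exact h45 _ hs _ hl e2 e b u he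
  obtain ⟨Y', hY'S, hY'L⟩ : ∃ Y' : ℕ → K → E, (∀ q ∈ [1, 2, 5, 6], Y' q = Y q) ∧
      (∀ p ∈ SSL, ∀ v, Y' p.2.2.1 v = (Y p.2.1 1)⁻¹ * (Y p.1 (-(p.2.2.2 : K)⁻¹ * v))⁻¹ *
        Y p.2.1 1 * Y p.1 (-(p.2.2.2 : K)⁻¹ * v)) := by
    refine ⟨fun q v => if q ∈ [0, 3, 4, 7] then (Y (ssOf q).2.1 1)⁻¹ *
      (Y (ssOf q).1 (-((ssOf q).2.2 : K)⁻¹ * v))⁻¹ * Y (ssOf q).2.1 1 *
      Y (ssOf q).1 (-((ssOf q).2.2 : K)⁻¹ * v) else Y q v, ?_, ?_⟩
    · intro q hq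
      funext v
      exact if_neg (short_not_long q hq)
    · intro p hp v
      obtain ⟨_, _, hl, _, _, _, _, _, _, _, _, _, hss⟩ := tabSS p hp
      show (if p.2.2.1 ∈ [0, 3, 4, 7] then _ else _) = _
      rw [if_pos hl, hss]
  have eqY : ∀ p ∈ SSL, ∀ Yl : K → E,
      (∀ v, Yl v = (Y p.2.1 1)⁻¹ * (Y p.1 (-(p.2.2.2 : K)⁻¹ * v))⁻¹ * Y p.2.1 1 *
        Y p.1 (-(p.2.2.2 : K)⁻¹ * v)) → Y' p.2.2.1 = Yl := by
    intro p hp Yl hYl
    funext v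
    rw [hY'L p hp v, hYl v]
  refine ⟨Y', hY'S, ?_, ?_⟩
  · intro l hl
    obtain ⟨p, hp, rfl⟩ := tabLong l hl
    obtain ⟨Yl, hYl, h1, h2, _, _⟩ := gen p hp
    rw [eqY p hp Yl hYl]
    exact ⟨h1, h2⟩
  · intro r hr s hs n1 n2 t u
    obtain ⟨p, hp, hcase⟩ := tabSScases r hr s hs ⟨n1, n2⟩
    obtain ⟨Yl, hYl, _, _, h3, h4⟩ := gen p hp
    obtain ⟨_, _, _, _, _, _, _, et, et', _, _, _, _⟩ := tabSS p hp
    rcases hcase with ⟨rfl, rfl⟩ | ⟨rfl, rfl⟩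
    · rw [hY'S _ hr, hY'S _ hs]
      unfold word
      rw [et]
      simp only [List.map_cons, List.map_nil, List.prod_cons, List.prod_nil, mul_one, pow_one]
      rw [eqY p hp Yl hYl]
      exact h3 t u
    · rw [hY'S _ hr, hY'S _ hs]
      unfold word
      rw [et']
      simp only [List.map_cons, List.map_nil, List.prod_cons, List.prod_nil, mul_one, pow_one]
      rw [eqY p hp Yl hYl]
      push_cast
      exact h4 t u

example : PD.{u, v, w} := pD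

end Cfsg.Agent.H23.B2F3
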