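import Mathlib
import Cfsg.Agent.H79.BrDefs

/-!
# S4504-MSPLIT (helper23, for helper79): splitting a sum over `G` into `p`-regular and `p`-singular elements
-/

set_option autoImplicit false

namespace Cfsg.Agent.H23.Br

open Cfsg Cfsg.Agent.H79.Br

universe u

/-- Sum over the image of a map all of whose fibres have `k` elements. -/
theorem sum_image_fiber {G : Type u} {α : Type*} [Fintype α] [DecidableEq G] (φ : α → G) (F : G → ℂ) (k : ℕ)
    (hk : ∀ a : α, (Finset.univ.filter (fun b => φ b = φ a)).card = k) :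
    ∑ a, F (φ a) = (k : ℂ) * ∑ g ∈ Finset.univ.image φ, F g := by
  rw [Finset.sum_comp F φ, Finset.mul_sum]
  apply Finset.sum_congr rfl
  intro g hg
  obtain ⟨a, -, rfl⟩ := Finset.mem_image.mp hg
  rw [hk a, nsmul_eq_mul]

section

variable {G : Type u} [Group G] [Finite G]

theorem pow_mem_center_of_centralizer (p : ℕ) (x : G)
    (hc : Nat.card (Subgroup.centralizer ({x} : Set G)) = p * Nat.card (Subgroup.center G))
    (u : G) (hu : u ∈ Subgroup.centralizer ({x} : Set G)) : u ^ p ∈ Subgroup.center G := by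
  have hZC : Subgroup.center G ≤ Subgroup.centralizer ({x} : Set G) := Subgroup.center_le_centralizer _
  have hidx : ((Subgroup.center G).subgroupOf (Subgroup.centralizer ({x} : Set G))).index = p := by
    have h1 := Subgroup.card_mul_index ((Subgroup.center G).subgroupOf (Subgroup.centralizer ({x} : Set G)))
    rw [Nat.card_congr (Subgroup.subgroupOfEquivOfLe hZC).toEquiv, hc] at h1
    have hZ : 0 < Nat.card (Subgroup.center G) := Nat.card_pos
    exact Nat.eq_of_mul_eq_mul_left hZ (by rw [h1, mul_comm])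
  have h2 := Subgroup.pow_index_mem ((Subgroup.center G).subgroupOf (Subgroup.centralizer ({x} : Set G)))
    (⟨u, hu⟩ : ↥(Subgroup.centralizer ({x} : Set G)))
  rw [hidx] at h2
  simpa [Subgroup.mem_subgroupOf] using h2

theorem not_mem_center_of_card (p : ℕ) (hp : p.Prime) (x : G)
    (hc : Nat.card (Subgroup.centralizer ({x} : Set G)) = p * Nat.card (Subgroup.center G)) :
    x ∉ Subgroup.center G := by
  intro hx
  have htop : Subgroup.centralizer ({x} : Set G) = ⊤ := by
    rw [eq_top_iff]; intro g _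
    rw [Subgroup.mem_centralizer_iff]
    intro y hy
    rw [Set.mem_singleton_iff] at hy; subst hy
    exact (Subgroup.mem_center_iff.mp hx g).symm
  rw [htop, Subgroup.card_top] at hc
  have hq : Nat.card (G ⧸ Subgroup.center G) = p := by
    have h1 := Subgroup.card_eq_card_quotient_mul_card_subgroup (Subgroup.center G)
    rw [hc] at h1
    have hZ : 0 < Nat.card (Subgroup.center G) := Nat.card_pos
    exact (Nat.eq_of_mul_eq_mul_right hZ h1).symm
  haveI : Fact p.Prime := ⟨hp⟩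
  haveI : IsCyclic (G ⧸ Subgroup.center G) := isCyclic_of_prime_card hq
  have hcomm := commutative_of_cyclic_center_quotient (QuotientGroup.mk' (Subgroup.center G))
    (by rw [QuotientGroup.ker_mk'])
  have hZtop : Subgroup.center G = ⊤ := by
    rw [eq_top_iff]; intro g _
    rw [Subgroup.mem_center_iff]; intro h; exact hcomm h g
  rw [hZtop, Subgroup.card_top] at hc
  have hG : 0 < Nat.card G := Nat.card_pos
  have h1 : p = 1 := by nlinarith
  exact hp.one_lt.ne' h1

theorem conj_mul_center (a x z : G) (hz : z ∈ Subgroup.center G) :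
    a * (x * z) * a⁻¹ = a * x * a⁻¹ * z := by
  calc a * (x * z) * a⁻¹ = a * x * (z * a⁻¹) := by group
    _ = a * x * (a⁻¹ * z) := by rw [Subgroup.mem_center_iff.mp hz a⁻¹]
    _ = a * x * a⁻¹ * z := by group

end

/-- **S4504-MSPLIT**. -/
theorem msplit : StMSplit.{u} := by
  intro G _ _ p _ P f x₁ x₂ hL F hF hFz
  classical
  haveI := Fintype.ofFinite G
  have hp : p.Prime := Fact.out
  have hB₁ := not_mem_center_of_card p hp x₁ hL.cent₁
  have hB₂ := not_mem_center_of_card p hp x₂ hL.cent₂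
  -- `P ∩ Z = 1`
  have hPZ : ∀ y ∈ P, y ∈ Subgroup.center G → y = 1 := by
    intro y hyP hyZ
    by_contra hy1
    have hF₀ : IsClassFunction G (fun g => if g ∈ Subgroup.center G ∧ g ≠ 1 then (1 : ℂ) else 0) := by
      intro g h
      have e1 : h * g * h⁻¹ ∈ Subgroup.center G ↔ g ∈ Subgroup.center G := by
        constructor
        · intro hh
          have := (inferInstance : (Subgroup.center G).Normal).conj_mem _ hh h⁻¹
          simpa [mul_assoc] using this
        · intro hh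
          exact (inferInstance : (Subgroup.center G).Normal).conj_mem _ hh h
      have e2 : h * g * h⁻¹ = 1 ↔ g = 1 := by
        constructor
        · intro hh
          have := congrArg (fun w => h⁻¹ * w * h) hh
          simpa [mul_assoc] using this
        · rintro rfl; simp
      simp only [e1, ne_eq, e2]
    have h0 := hL.orb _ hF₀
    simp only [ne_eq, not_true_eq_false, and_false, if_false, hB₁, hB₂, false_and, mul_zero, add_zero] at h0
    haveI := Fintype.ofFinite P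
    rw [finsum_eq_sum_of_fintype] at h0
    have h1 : (∑ x : P, if ((x : G) ∈ Subgroup.center G ∧ ¬ (x : G) = 1) then (1 : ℂ) else 0) =
        ((∑ x : P, if ((x : G) ∈ Subgroup.center G ∧ ¬ (x : G) = 1) then 1 else 0 : ℕ) : ℂ) := by
      push_cast; rfl
    rw [h1, Nat.cast_eq_zero, Finset.sum_eq_zero_iff] at h0
    have h2 := h0 ⟨y, hyP⟩ (Finset.mem_univ _)
    simp [hyZ, hy1] at h2
  have hA : ∀ x, Nat.card (Subgroup.centralizer ({x} : Set G)) = p * Nat.card (Subgroup.center G) →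
      x ∈ P → x ^ p = 1 := by
    intro x hc hxP
    apply hPZ _ (P.pow_mem hxP p)
    exact pow_mem_center_of_centralizer p x hc x (by
      rw [Subgroup.mem_centralizer_iff]; intro y hy; rw [Set.mem_singleton_iff] at hy; rw [hy])
  have hx₁p := hA x₁ hL.cent₁ hL.mem₁
  have hx₂p := hA x₂ hL.cent₂ hL.mem₂
  have hJ : ∀ z ∈ Subgroup.center G, ∀ z' ∈ Subgroup.center G, z ^ p = z' ^ p → z = z' := by
    intro z hz z' hz' h
    have hw : z * z'⁻¹ ∈ Subgroup.center G := Subgroup.mul_mem _ hz (Subgroup.inv_mem _ hz')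
    have hcomm : Commute z z'⁻¹ := (Subgroup.mem_center_iff.mp hz z'⁻¹).symm
    have hwp : (z * z'⁻¹) ^ p = 1 := by rw [hcomm.mul_pow, h, inv_pow, mul_inv_cancel]
    have hord : orderOf (z * z'⁻¹) ∣ p := orderOf_dvd_of_pow_eq_one hwp
    rcases (Nat.dvd_prime hp).mp hord with h1 | h1
    · rw [orderOf_eq_one_iff] at h1; exact mul_inv_eq_one.mp h1
    · exact absurd (h1 ▸ dvd_refl _) (hL.zreg _ hw)
  have hI : ∀ x, x ^ p = 1 → ∀ (a z : G), z ∈ Subgroup.center G → (a * (x * z) * a⁻¹) ^ p = z ^ p := by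
    intro x hx a z hz
    have hcomm : Commute x z := Subgroup.mem_center_iff.mp hz x
    rw [conj_pow, hcomm.mul_pow, hx, one_mul]
    have hzp : z ^ p ∈ Subgroup.center G := Subgroup.pow_mem _ hz p
    calc a * z ^ p * a⁻¹ = z ^ p * a * a⁻¹ := by rw [Subgroup.mem_center_iff.mp hzp a]
      _ = z ^ p := by group
  have hK : ∀ x, x ^ p = 1 → x ≠ 1 → x ∈ P → ∀ (a z : G), z ∈ Subgroup.center G →
      p ∣ orderOf (a * (x * z) * a⁻¹) := by
    intro x hx hx1 hxP a z hz
    have hox : orderOf x = p := orderOf_eq_prime hx hx1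
    have h1 : (a * (x * z) * a⁻¹) ^ orderOf (a * (x * z) * a⁻¹) = 1 := pow_orderOf_eq_one _
    rw [conj_pow] at h1
    have h2 : (x * z) ^ orderOf (a * (x * z) * a⁻¹) = 1 := by
      have := congrArg (fun w => a⁻¹ * w * a) h1
      simpa [mul_assoc] using this
    have hcomm : Commute x z := Subgroup.mem_center_iff.mp hz x
    rw [hcomm.mul_pow] at h2
    have h3 : x ^ orderOf (a * (x * z) * a⁻¹) = (z ^ orderOf (a * (x * z) * a⁻¹))⁻¹ :=
      eq_inv_of_mul_eq_one_left h2
    have h4 : x ^ orderOf (a * (x * z) * a⁻¹) = 1 :=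
      hPZ _ (P.pow_mem hxP _) (by rw [h3]; exact Subgroup.inv_mem _ (Subgroup.pow_mem _ hz _))
    rw [← hox]; exact orderOf_dvd_of_pow_eq_one h4
  -- the maps `(a, z) ↦ a (x z) a⁻¹`
  let φ : G → G × ↥(Subgroup.center G) → G := fun x b => b.1 * (x * (b.2 : G)) * b.1⁻¹
  have hφ : ∀ x b, φ x b = b.1 * (x * (b.2 : G)) * b.1⁻¹ := fun _ _ => rfl
  have hfe : ∀ x, x ^ p = 1 → ∀ b b₀ : G × ↥(Subgroup.center G), φ x b = φ x b₀ →
      b.2 = b₀.2 ∧ x * (b₀.1⁻¹ * b.1) = (b₀.1⁻¹ * b.1) * x := by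
    intro x hx b b₀ h
    rw [hφ, hφ] at h
    have hzz : (b.2 : G) = b₀.2 := hJ _ b.2.2 _ b₀.2.2 (by
      rw [← hI x hx b.1 b.2 b.2.2, ← hI x hx b₀.1 b₀.2 b₀.2.2, h])
    refine ⟨Subtype.ext hzz, ?_⟩
    rw [hzz, conj_mul_center _ _ _ b₀.2.2, conj_mul_center _ _ _ b₀.2.2] at h
    have h' := mul_right_cancel h
    calc x * (b₀.1⁻¹ * b.1) = b₀.1⁻¹ * (b₀.1 * x * b₀.1⁻¹) * b.1 := by group
      _ = b₀.1⁻¹ * (b.1 * x * b.1⁻¹) * b.1 := by rw [h']
      _ = (b₀.1⁻¹ * b.1) * x := by group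
  have hfib : ∀ x, x ^ p = 1 →
      Nat.card (Subgroup.centralizer ({x} : Set G)) = p * Nat.card (Subgroup.center G) →
      ∀ b₀ : G × ↥(Subgroup.center G),
        (Finset.univ.filter (fun b : G × ↥(Subgroup.center G) => φ x b = φ x b₀)).card =
          p * Nat.card (Subgroup.center G) := by
    intro x hx hc b₀
    rw [← hc, ← Fintype.card_subtype, ← Nat.card_eq_fintype_card]
    apply Nat.card_congr
    refine ⟨fun b => ⟨b₀.1⁻¹ * b.1.1, ?_⟩, fun c => ⟨(b₀.1 * c.1, b₀.2), ?_⟩, ?_, ?_⟩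
    · rw [Subgroup.mem_centralizer_iff]
      intro y hy
      rw [Set.mem_singleton_iff] at hy
      rw [hy]
      exact (hfe x hx b.1 b₀ b.2).2
    · have hcx : x * c.1 = c.1 * x := by
        have := Subgroup.mem_centralizer_iff.mp c.2 x (Set.mem_singleton x)
        exact this
      rw [hφ, hφ]
      show b₀.1 * c.1 * (x * (b₀.2 : G)) * (b₀.1 * c.1)⁻¹ = b₀.1 * (x * (b₀.2 : G)) * b₀.1⁻¹
      rw [conj_mul_center _ _ _ b₀.2.2, conj_mul_center _ _ _ b₀.2.2]
      congr 1
      calc b₀.1 * c.1 * x * (b₀.1 * c.1)⁻¹ = b₀.1 * (c.1 * x) * c.1⁻¹ * b₀.1⁻¹ := by group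
        _ = b₀.1 * (x * c.1) * c.1⁻¹ * b₀.1⁻¹ := by rw [hcx]
        _ = b₀.1 * x * b₀.1⁻¹ := by group
    · intro b
      apply Subtype.ext
      have h1 := (hfe x hx b.1 b₀ b.2).1
      apply Prod.ext
      · show b₀.1 * (b₀.1⁻¹ * b.1.1) = b.1.1
        group
      · exact h1.symm
    · intro c
      apply Subtype.ext
      show b₀.1⁻¹ * (b₀.1 * c.1) = c.1
      group
  have hsum : ∀ x, x ^ p = 1 →
      Nat.card (Subgroup.centralizer ({x} : Set G)) = p * Nat.card (Subgroup.center G) →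
      (p : ℂ) * ∑ g ∈ Finset.univ.image (φ x), F g = (Nat.card G : ℂ) * F x := by
    intro x hx hc
    have h1 := sum_image_fiber (φ x) F (p * Nat.card (Subgroup.center G)) (hfib x hx hc)
    have h2 : ∑ b : G × ↥(Subgroup.center G), F (φ x b) =
        (Nat.card G : ℂ) * (Nat.card (Subgroup.center G) : ℂ) * F x := by
      have h3 : ∀ b : G × ↥(Subgroup.center G), F (φ x b) = F x := by
        intro b
        rw [hφ, hF, hFz x _ b.2.2]
      simp only [h3, Finset.sum_const, Finset.card_univ, Fintype.card_prod, nsmul_eq_mul]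
      rw [← Nat.card_eq_fintype_card, ← Nat.card_eq_fintype_card]
      push_cast
      ring
    rw [h2] at h1
    have hZ0 : (Nat.card (Subgroup.center G) : ℂ) ≠ 0 := Nat.cast_ne_zero.mpr Nat.card_pos.ne'
    push_cast at h1
    apply mul_right_cancel₀ hZ0
    linear_combination -h1
  have hS : Finset.univ.filter (fun g : G => p ∣ orderOf g) =
      Finset.univ.image (φ x₁) ∪ Finset.univ.image (φ x₂) := by
    ext g
    simp only [Finset.mem_filter, Finset.mem_univ, true_and, Finset.mem_union, Finset.mem_image]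
    constructor
    · intro hg
      obtain ⟨z, hz, h | h⟩ := hL.sing g hg
      · left
        obtain ⟨c, hc⟩ := isConj_iff.mp h
        refine ⟨(c⁻¹, ⟨z, hz⟩), ?_⟩
        rw [hφ]
        show c⁻¹ * (x₁ * z) * c⁻¹⁻¹ = g
        rw [← hc]; group
      · right
        obtain ⟨c, hc⟩ := isConj_iff.mp h
        refine ⟨(c⁻¹, ⟨z, hz⟩), ?_⟩
        rw [hφ]
        show c⁻¹ * (x₂ * z) * c⁻¹⁻¹ = g
        rw [← hc]; group
    · rintro (⟨b, rfl⟩ | ⟨b, rfl⟩)
      · exact hK x₁ hx₁p hL.ne₁ hL.mem₁ b.1 b.2 b.2.2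
      · exact hK x₂ hx₂p hL.ne₂ hL.mem₂ b.1 b.2 b.2.2
  have hdisj : Disjoint (Finset.univ.image (φ x₁)) (Finset.univ.image (φ x₂)) := by
    rw [Finset.disjoint_left]
    intro g hg1 hg2
    obtain ⟨b, -, rfl⟩ := Finset.mem_image.mp hg1
    obtain ⟨b', -, h⟩ := Finset.mem_image.mp hg2
    rw [hφ, hφ] at h
    have hzz : (b'.2 : G) = b.2 := hJ _ b'.2.2 _ b.2.2 (by
      rw [← hI x₂ hx₂p b'.1 b'.2 b'.2.2, ← hI x₁ hx₁p b.1 b.2 b.2.2, h])
    rw [hzz, conj_mul_center _ _ _ b.2.2, conj_mul_center _ _ _ b.2.2] at h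
    have h' := mul_right_cancel h
    apply hL.nconj
    rw [isConj_iff]
    refine ⟨b'.1⁻¹ * b.1, ?_⟩
    calc b'.1⁻¹ * b.1 * x₁ * (b'.1⁻¹ * b.1)⁻¹ = b'.1⁻¹ * (b.1 * x₁ * b.1⁻¹) * b'.1 := by group
      _ = b'.1⁻¹ * (b'.1 * x₂ * b'.1⁻¹) * b'.1 := by rw [h']
      _ = x₂ := by group
  rw [finsum_eq_sum_of_fintype]
  have hreg : ∑ᶠ g ∈ {g : G | ¬ p ∣ orderOf g}, F g =
      ∑ g ∈ Finset.univ.filter (fun g : G => ¬ p ∣ orderOf g), F g := by
    rw [finsum_mem_eq_finite_toFinset_sum _ (Set.toFinite _)]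
    apply Finset.sum_congr _ (fun _ _ => rfl)
    ext g; simp
  rw [hreg]
  have hsplit : ∑ g : G, F g = ∑ g ∈ Finset.univ.filter (fun g : G => ¬ p ∣ orderOf g), F g +
      ∑ g ∈ Finset.univ.filter (fun g : G => p ∣ orderOf g), F g := by
    rw [add_comm]; exact (Finset.sum_filter_add_sum_filter_not Finset.univ _ F).symm
  rw [hsplit, hS, Finset.sum_union hdisj, mul_add, mul_add, hsum x₁ hx₁p hL.cent₁, hsum x₂ hx₂p hL.cent₂]
  ring

end Cfsg.Agent.H23.Br
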