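import Cfsg.Agent.H23.CharDiag

set_option autoImplicit false
set_option maxRecDepth 100000
set_option maxHeartbeats 0

/-!
# Consistency of the chain tables of the seven tabulated types; `G ∩ Ĥ ⊆ H`
-/

namespace Cfsg.Agent.H23

open Cfsg.Lie

theorem chainOK_G2 : ChainOK chevG2 := by unfold ChainOK; decide +kernel

theorem chainOK_B2 : ChainOK chevB2 := by unfold ChainOK; decide +kernel

theorem chainOK_D4 : ChainOK chevD4 := by unfold ChainOK; decide +kernel

theorem chainOK_F4 : ChainOK chevF4 := by unfold ChainOK; decide +kernel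

theorem chainOK_E6 : ChainOK chevE6 := by unfold ChainOK; decide +kernel

theorem chainOK_E7 : ChainOK chevE7 := by unfold ChainOK; decide +kernel

theorem chainOK_E8 : ChainOK chevE8 := by unfold ChainOK; decide +kernel

theorem chainOK_all (D : ChevalleyDatum)
    (hD : D ∈ [chevG2, chevB2, chevD4, chevF4, chevE6, chevE7, chevE8]) : ChainOK D := by
  simp only [List.mem_cons, List.not_mem_nil, or_false] at hD
  rcases hD with rfl | rfl | rfl | rfl | rfl | rfl | rfl
  exacts [chainOK_G2, chainOK_B2, chainOK_D4, chainOK_F4, chainOK_E6, chainOK_E7, chainOK_E8]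

/-- `G ∩ Ĥ ⊆ H` for the seven tabulated types. -/
theorem charDiag_mem_diagonal_all {F : Type*} [Field F] (D : ChevalleyDatum)
    (hD : D ∈ [chevG2, chevB2, chevD4, chevF4, chevE6, chevE7, chevE8]) (χ : ℕ → Fˣ)
    (hχ : D.IsRootCharacter χ) (g : GL D.Idx F) (hg : g ∈ D.group F)
    (hgχ : (g : Matrix D.Idx D.Idx F) = D.charDiag F χ) : g ∈ D.diagonalSubgroup F := by
  obtain ⟨z, η, w, rT, par, dep, hP⟩ := packF_all (F := F) D hD
  exact charDiag_mem_diagonal hP.packB (chainOK_all D hD) χ hχ g hg hgχ

end Cfsg.Agent.H23
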