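import Cfsg.Agent.H23.Gens
import Cfsg.Prelude.Def_ChevAutomorphisms

set_option autoImplicit false

/-!
# Diagonal matrices of characters of the root lattice lying in the Chevalley group lie in `H`
-/

namespace Cfsg.Agent.H23

open Cfsg.Lie

variable {D : ChevalleyDatum} {F : Type*} [Field F] {z η : ℕ → ℕ → ℤ}

/-- An entry of column `c` of `x_r` sits at a root reached from `c` by adding `r` as many times as its power. -/
def chainEntOK (D : ChevalleyDatum) (r c : ℕ) (x : ℕ × ℤ × ℕ) : Bool :=
  Nat.blt x.1 D.nroots &&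
  match x.2.2 with
  | 0 => Nat.beq x.1 c
  | 1 => D.chainRoot r c 1 == some x.1
  | 2 => match D.chainRoot r c 1 with
    | some u => Nat.blt u D.nroots && (D.chainRoot r u 1 == some x.1)
    | none => false
  | 3 => match D.chainRoot r c 1 with
    | some u => Nat.blt u D.nroots && (match D.chainRoot r u 1 with
      | some v => Nat.blt v D.nroots && (D.chainRoot r v 1 == some x.1)
      | none => false)
    | none => false
  | _ => false

/-- The check of `chainEntOK` along the row of the root `r` of the chain table. -/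
def chainRowOK (D : ChevalleyDatum) (r : ℕ) : Bool :=
  (D.chain.getD r #[]).toList.all fun e => (e.2.toList.zipIdx).all fun q =>
    !(Nat.blt q.1.1 D.nroots) || chainEntOK D r e.1 (q.1.1, q.1.2, q.2 + 1)

/-- The chain table is consistent with itself: the `k`-th term of the `r`-chain through `c` is reached by
`k` additions of `r`. -/
def ChainOK (D : ChevalleyDatum) : Prop := ∀ r < D.nroots, chainRowOK D r = true

theorem ChainOK.entry (h : ChainOK D) (r : ℕ) (hr : r < D.nroots) (c : ℕ) (hc : c < D.nroots) (hcr : c ≠ r)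
    (hcn : c ≠ D.negIdx.getD r 0) (x : ℕ × ℤ × ℕ) (hx : x ∈ xEntries D r c) :
    x = (c, 1, 0) ∨ chainEntOK D r c x = true := by
  unfold xEntries at hx
  rw [if_pos hc, if_neg hcr, if_neg hcn, List.mem_cons] at hx
  rcases hx with hx | hx
  · exact Or.inl hx
  · right
    simp only [List.mem_flatMap, List.mem_filter, List.mem_map, decide_eq_true_eq] at hx
    obtain ⟨e, ⟨he, hec⟩, q, ⟨hq, hqn⟩, rfl⟩ := hx
    have h1 := h r hr
    unfold chainRowOK at h1
    rw [List.all_eq_true] at h1
    have h2 := h1 e he
    rw [List.all_eq_true] at h2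
    have h3 := h2 q hq
    have h4 : Nat.blt q.1.1 D.nroots = true := by rw [Nat.blt_eq]; exact hqn
    rw [h4] at h3
    rw [← hec]
    simpa using h3

/-- The values of a character of the root lattice, extended by `1` to the coordinates of `H`. -/
def chiExt (D : ChevalleyDatum) (χ : ℕ → Fˣ) : ℕ → F := fun c => if c < D.nroots then ((χ c : Fˣ) : F) else 1

theorem chiExt_root (χ : ℕ → Fˣ) (c : ℕ) (hc : c < D.nroots) : chiExt D χ c = ((χ c : Fˣ) : F) := by
  unfold chiExt; rw [if_pos hc]

theorem chiExt_ge (χ : ℕ → Fˣ) (c : ℕ) (hc : D.nroots ≤ c) : chiExt D χ c = 1 := by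
  unfold chiExt; rw [if_neg (by omega)]

/-- A character of the root lattice is multiplicatively admissible. -/
theorem ChainOK.madm (h : ChainOK D) (hT : Tab D) (χ : ℕ → Fˣ) (hχ : D.IsRootCharacter χ) :
    MAdm D (chiExt D χ) := by
  intro s hs c x hx
  have hns : D.negIdx.getD s 0 < D.nroots := hT.neg_lt s hs
  by_cases hc : c < D.nroots
  · by_cases hcs : c = s
    · unfold xEntries at hx
      rw [if_pos hc, if_pos hcs, List.mem_singleton] at hx
      rw [hx]; simp
    · by_cases hcn : c = D.negIdx.getD s 0
      · unfold xEntries at hx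
        rw [if_pos hc, if_neg hcs, if_pos hcn, List.mem_cons, List.mem_cons] at hx
        have hneg : χ c = (χ s)⁻¹ := by rw [hcn]; exact hχ.1 s hs
        rcases hx with hx | hx | hx
        · rw [hx]; simp
        · rw [hx]
          show chiExt D χ s = chiExt D χ c * chiExt D χ s ^ 2
          rw [chiExt_root χ s hs, chiExt_root χ c hc, hneg, ← Units.val_pow_eq_pow_val, ← Units.val_mul]
          congr 1
          rw [pow_two, inv_mul_cancel_left]
        · simp only [List.mem_map, List.mem_range] at hx
          obtain ⟨i, -, rfl⟩ := hx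
          show chiExt D χ (D.nroots + i) = chiExt D χ c * chiExt D χ s ^ 1
          rw [chiExt_ge χ _ (by omega), chiExt_root χ s hs, chiExt_root χ c hc, hneg, pow_one,
            ← Units.val_mul, inv_mul_cancel, Units.val_one]
      · rcases h.entry s hs c hc hcs hcn x hx with rfl | hx'
        · simp
        · unfold chainEntOK at hx'
          rw [Bool.and_eq_true, Nat.blt_eq] at hx'
          obtain ⟨hx1, hx2⟩ := hx'
          obtain ⟨u, m, k⟩ := x
          simp only at hx1 hx2 ⊢
          rw [chiExt_root χ u hx1, chiExt_root χ s hs, chiExt_root χ c hc, ← Units.val_pow_eq_pow_val,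
            ← Units.val_mul]
          congr 1
          match k, hx2 with
          | 0, hx2 =>
            have : u = c := Nat.eq_of_beq_eq_true hx2
            rw [this]; simp
          | 1, hx2 =>
            have h1 : D.chainRoot s c 1 = some u := by simpa using hx2
            rw [hχ.2 s c u hs hc h1, pow_one, mul_comm]
          | 2, hx2 =>
            rcases hu : D.chainRoot s c 1 with _ | u'
            · rw [hu] at hx2; simp at hx2
            · rw [hu] at hx2
              simp only [Bool.and_eq_true, Nat.blt_eq, beq_iff_eq] at hx2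
              rw [hχ.2 s u' u hs hx2.1 hx2.2, hχ.2 s c u' hs hc hu, pow_two]
              rw [mul_comm (χ c), mul_assoc]
          | 3, hx2 =>
            rcases hu : D.chainRoot s c 1 with _ | u'
            · rw [hu] at hx2; simp at hx2
            · rw [hu] at hx2
              simp only [Bool.and_eq_true, Nat.blt_eq] at hx2
              obtain ⟨hu', hx3⟩ := hx2
              rcases hv : D.chainRoot s u' 1 with _ | v'
              · rw [hv] at hx3; simp at hx3
              · rw [hv] at hx3
                simp only [Bool.and_eq_true, Nat.blt_eq, beq_iff_eq] at hx3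
                rw [hχ.2 s v' u hs hx3.1 hx3.2, hχ.2 s u' v' hs hu' hv, hχ.2 s c u' hs hc hu]
                rw [mul_comm (χ c), pow_succ, pow_two, mul_assoc, mul_assoc]
          | (k + 4), hx2 => simp at hx2
  · unfold xEntries at hx
    rw [if_neg hc] at hx
    by_cases hc2 : c < D.nroots + D.rank
    · rw [if_pos hc2, List.mem_cons, List.mem_singleton] at hx
      rcases hx with hx | hx
      · rw [hx]; simp
      · rw [hx]
        show chiExt D χ s = chiExt D χ c * chiExt D χ s ^ 1
        rw [chiExt_ge χ c (by omega), one_mul, pow_one]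
    · rw [if_neg hc2] at hx
      simp at hx

/-- The diagonal matrix of a character of the root lattice is a torus element. -/
theorem charDiag_isTorus (h : ChainOK D) (hT : Tab D) (χ : ℕ → Fˣ) (hχ : D.IsRootCharacter χ)
    (g : GL D.Idx F) (hg : (g : Matrix D.Idx D.Idx F) = D.charDiag F χ) : IsTorus D (chiExt D χ) g := by
  refine ⟨?_, h.madm hT χ hχ, ?_, ?_⟩
  · intro c
    unfold chiExt
    split_ifs
    · exact Units.ne_zero _
    · exact one_ne_zero
  · intro i
    exact chiExt_ge χ _ (by omega)
  · rw [hg]
    unfold ChevalleyDatum.charDiag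
    congr 1
    funext k
    rcases k with i | r
    · exact (chiExt_ge χ _ (by show D.nroots ≤ D.nroots + i.val; omega)).symm
    · exact (chiExt_root χ r.val r.isLt).symm

/-- A torus element lying in the Chevalley group lies in `H`. -/
theorem isTorus_mem_diagonal (hP : PackB D F z η) (χ : ℕ → F) (g : GL D.Idx F) (hχ : IsTorus D χ g)
    (hg : g ∈ D.group F) : g ∈ D.diagonalSubgroup F := by
  have hS := hP.sem
  have hT := hP.tab
  have hnorm := diagonal_le_normalizer_rootGen hS D.IsPosRoot (fun _ hr => hr.1)
  have hgt : g ∈ torusGroup D F := ⟨χ, hχ⟩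
  -- `g` normalizes `U`
  have hgU : ∀ u ∈ D.posUnipotent F, g * u * g⁻¹ ∈ D.posUnipotent F := by
    intro u hu
    have hle : D.posUnipotent F ≤ (D.posUnipotent F).comap (MulAut.conj g).toMonoidHom := by
      rw [posUnipotent_eq]
      apply rootGen_le hS
      intro r hr t
      show g * xU hS r t * g⁻¹ ∈ D.posUnipotent F
      rw [isTorus_conj hS χ g hχ r hr.1 t]
      exact xU_mem_rootGen hS _ r hr _
    exact hle hu
  -- `g` commutes with `H`
  have hgH : ∀ h ∈ D.diagonalSubgroup F, g * h * g⁻¹ = h := by
    intro h hh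
    obtain ⟨χ', hχ'⟩ := diagonal_le_torus hS hT hh
    rw [mul_inv_eq_iff_eq_mul]
    apply Units.ext
    rw [Units.val_mul, Units.val_mul, hχ.2.2.2, hχ'.2.2.2, Matrix.diagonal_mul_diagonal,
      Matrix.diagonal_mul_diagonal]
    congr 1
    funext k
    exact mul_comm _ _
  have hgB : g ∈ D.borelSubgroup F := by
    apply mem_borel_of_conj hP g hg
    intro b hb
    obtain ⟨u, hu, h, hh, rfl⟩ := exists_mul_of_mem_sup _ _ hnorm b hb
    have e : g * (u * h) * g⁻¹ = (g * u * g⁻¹) * (g * h * g⁻¹) := by group
    rw [e, hgH h hh]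
    exact Subgroup.mul_mem _ ((le_sup_left : D.posUnipotent F ≤ D.borelSubgroup F) (hgU u hu))
      ((le_sup_right : D.diagonalSubgroup F ≤ D.borelSubgroup F) hh)
  obtain ⟨u, hu, h, hh, rfl⟩ := exists_mul_of_mem_sup _ _ hnorm g hgB
  have hut : u ∈ torusGroup D F := by
    have : u = u * h * h⁻¹ := by group
    rw [this]
    exact Subgroup.mul_mem _ hgt (Subgroup.inv_mem _ (diagonal_le_torus hS hT hh))
  have hu1 : u ∈ uniGroup (lvl D) 1 ⊓ triGroup (F := F) (lvlM D) :=
    ⟨posUnipotent_le_uni hS hu, torus_le_tri _ hut⟩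
  rw [uni_inf_triM, Subgroup.mem_bot] at hu1
  rw [hu1, one_mul]
  exact hh

/-- `G ∩ Ĥ ⊆ H`. -/
theorem charDiag_mem_diagonal (hP : PackB D F z η) (h : ChainOK D) (χ : ℕ → Fˣ)
    (hχ : D.IsRootCharacter χ) (g : GL D.Idx F) (hg : g ∈ D.group F)
    (hgχ : (g : Matrix D.Idx D.Idx F) = D.charDiag F χ) : g ∈ D.diagonalSubgroup F :=
  isTorus_mem_diagonal hP _ g (charDiag_isTorus h hP.tab χ hχ g hgχ) hg

end Cfsg.Agent.H23
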