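import Mathlib
import Cfsg.Agent.H95.FHDefs

set_option autoImplicit false

/-!
# Feit–Higman (S1142), pieces TRIGE / TRIGO: common lemmas on the finite trigonometric sums
-/

namespace Cfsg.Agent.H23.FH

open Cfsg.Agent.H95.FH Finset

/-- Splitting a sum over `range (2 h)` by parity. -/
theorem sum_range_two_mul (f : ℕ → ℝ) (h : ℕ) :
    ∑ k ∈ range (2 * h), f k = ∑ i ∈ range h, (f (2 * i) + f (2 * i + 1)) := by
  induction h with
  | zero => simp
  | succ h ih =>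
    rw [show 2 * (h + 1) = 2 * h + 1 + 1 by ring, sum_range_succ, sum_range_succ, ih, sum_range_succ]
    ring

/-- `G_i² / (p q)^i`. -/
noncomputable def Rs (p q μ : ℝ) (i : ℕ) : ℝ := Gseq p q μ i ^ 2 / (p * q) ^ i

theorem wt_even (p q : ℝ) (i : ℕ) : wt p q (2 * i) = (p * q) ^ i := by
  unfold wt
  rw [show (2 * i + 1) / 2 = i by omega, show 2 * i / 2 = i by omega, mul_pow]

theorem wt_odd (p q : ℝ) (i : ℕ) : wt p q (2 * i + 1) = p * (p * q) ^ i := by
  unfold wt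
  rw [show (2 * i + 1 + 1) / 2 = i + 1 by omega, show (2 * i + 1) / 2 = i by omega, mul_pow, pow_succ]
  ring

section Terms

variable (hG : GamStmt) (p q μ : ℝ) (hp : p ≠ 0) (hq : q ≠ 0)

include hG hp in
theorem term1 (i : ℕ) : gam μ (alt (a2 p μ) (c2 q) (2 * i)) ^ 2 / wt p q (2 * i) = Rs p q μ i := by
  rw [(hG p q μ hp i).1, wt_even]; rfl

include hG hp hq in
theorem term2 (i : ℕ) :
    gam μ (alt (a2 p μ) (c2 q) (2 * i + 1)) ^ 2 / wt p q (2 * i + 1) = p * Rs p q μ i := by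
  rw [(hG p q μ hp i).2.1, wt_odd]
  unfold Rs
  have : (p * q) ^ i ≠ 0 := pow_ne_zero _ (mul_ne_zero hp hq)
  field_simp

include hG hp in
theorem term3 (i : ℕ) : gam μ (alt (c2 q) (a2 p μ) (2 * i)) ^ 2 / wt q p (2 * i) = Rs p q μ i := by
  rw [(hG p q μ hp i).2.2.1, wt_even, mul_comm q p]; rfl

include hG hp hq in
theorem term4 (i : ℕ) :
    gam μ (alt (c2 q) (a2 p μ) (2 * i + 1)) ^ 2 / wt q p (2 * i + 1) = Rs p q μ (i + 1) / p := by
  rw [(hG p q μ hp i).2.2.2, wt_odd, mul_comm q p]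
  unfold Rs
  have : (p * q) ^ i ≠ 0 := pow_ne_zero _ (mul_ne_zero hp hq)
  field_simp
  ring

include hG hp hq in
/-- The sum for `n = 2 h`. -/
theorem Ssum_even (h : ℕ) (hh : 1 ≤ h) :
    Ssum p q (2 * h) μ =
      (1 + p) * ∑ i ∈ range h, Rs p q μ i + (1 + 1 / p) * ∑ i ∈ range h, Rs p q μ (i + 1) := by
  unfold Ssum
  have e5 : ∑ l ∈ Ico 1 (2 * h), gam μ (alt (c2 q) (a2 p μ) l) ^ 2 / wt q p l =
      ∑ l ∈ range (2 * h), gam μ (alt (c2 q) (a2 p μ) l) ^ 2 / wt q p l -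
        gam μ (alt (c2 q) (a2 p μ) (2 * 0)) ^ 2 / wt q p (2 * 0) := by
    rw [Finset.sum_range_eq_add_Ico _ (by omega : 0 < 2 * h)]
    ring
  rw [e5, sum_range_succ, sum_range_two_mul, sum_range_two_mul]
  simp only [term1 hG p q μ hp, term2 hG p q μ hp hq, term3 hG p q μ hp, term4 hG p q μ hp hq]
  have key : ∑ i ∈ range h, Rs p q μ i + Rs p q μ h = ∑ i ∈ range h, Rs p q μ (i + 1) + Rs p q μ 0 := by
    rw [← sum_range_succ, sum_range_succ']
  have s1 : ∑ i ∈ range h, (Rs p q μ i + p * Rs p q μ i) = (1 + p) * ∑ i ∈ range h, Rs p q μ i := by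
    rw [mul_sum]; apply sum_congr rfl; intros; ring
  have s2 : ∑ i ∈ range h, (Rs p q μ i + Rs p q μ (i + 1) / p) =
      ∑ i ∈ range h, Rs p q μ i + (1 / p) * ∑ i ∈ range h, Rs p q μ (i + 1) := by
    rw [sum_add_distrib, mul_sum]; congr 1; apply sum_congr rfl; intros; ring
  rw [s1, s2]
  linarith [key]

include hG hp hq in
/-- The sum for `n = 2 h + 1`. -/
theorem Ssum_odd (h : ℕ) :
    Ssum p q (2 * h + 1) μ =
      (1 + p) * ∑ i ∈ range (h + 1), Rs p q μ i + (1 + 1 / p) * ∑ i ∈ range h, Rs p q μ (i + 1) := by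
  unfold Ssum
  have e5 : ∑ l ∈ Ico 1 (2 * h + 1), gam μ (alt (c2 q) (a2 p μ) l) ^ 2 / wt q p l =
      ∑ l ∈ range (2 * h + 1), gam μ (alt (c2 q) (a2 p μ) l) ^ 2 / wt q p l -
        gam μ (alt (c2 q) (a2 p μ) (2 * 0)) ^ 2 / wt q p (2 * 0) := by
    rw [Finset.sum_range_eq_add_Ico _ (by omega : 0 < 2 * h + 1)]
    ring
  rw [e5, show 2 * h + 1 + 1 = 2 * (h + 1) by ring, sum_range_two_mul, sum_range_succ _ (2 * h),
    sum_range_two_mul]
  simp only [term1 hG p q μ hp, term2 hG p q μ hp hq, term3 hG p q μ hp, term4 hG p q μ hp hq]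
  have key : ∑ i ∈ range h, Rs p q μ i + Rs p q μ h = ∑ i ∈ range h, Rs p q μ (i + 1) + Rs p q μ 0 := by
    rw [← sum_range_succ, sum_range_succ']
  have s1 : ∑ i ∈ range (h + 1), (Rs p q μ i + p * Rs p q μ i) =
      (1 + p) * ∑ i ∈ range (h + 1), Rs p q μ i := by
    rw [mul_sum]; apply sum_congr rfl; intros; ring
  have s2 : ∑ i ∈ range h, (Rs p q μ i + Rs p q μ (i + 1) / p) =
      ∑ i ∈ range h, Rs p q μ i + (1 / p) * ∑ i ∈ range h, Rs p q μ (i + 1) := by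
    rw [sum_add_distrib, mul_sum]; congr 1; apply sum_congr rfl; intros; ring
  rw [s1, s2]
  linarith [key]

end Terms

open Real

theorem trig_rec (ρ a φ : ℝ) :
    ρ * sin (a + 2 * φ) - sin (a + φ) =
      2 * cos φ * (ρ * sin (a + φ) - sin a) - (ρ * sin a - sin (a - φ)) := by
  rw [show a + 2 * φ = (a + φ) + φ by ring, sin_add (a + φ) φ, sin_sub, sin_add a φ, cos_add a φ]
  linear_combination (-(ρ * sin a)) * (sin_sq_add_cos_sq φ)

/-- The closed form of `Gseq`. -/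
theorem Gseq_closed (p q μ x ρ φ : ℝ) (hx : x ^ 2 = p * q)
    (hT : (p + 1) * (q + 1) * μ - p - q = 2 * x * cos φ) (h1 : p * ((q + 1) * μ - 1) = x * ρ) :
    ∀ k : ℕ, sin φ * Gseq p q μ k = x ^ k * (ρ * sin (k * φ) - sin (k * φ - φ)) ∧
      sin φ * Gseq p q μ (k + 1) =
        x ^ (k + 1) * (ρ * sin (k * φ + φ) - sin (k * φ)) := by
  intro k
  induction k with
  | zero =>
    constructor
    · simp [Gseq]
    · simp only [Gseq, h1]
      simp
      ring
  | succ k ih =>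
    refine ⟨?_, ?_⟩
    · have := ih.2
      rw [this]
      push_cast
      rw [show ((k : ℝ) + 1) * φ = k * φ + φ by ring, add_sub_cancel_right]
    · have e : Gseq p q μ (k + 1 + 1) =
          ((p + 1) * (q + 1) * μ - p - q) * Gseq p q μ (k + 1) - p * q * Gseq p q μ k := rfl
      rw [e, hT, ← hx]
      have e1 := ih.1
      have e2 := ih.2
      have t := trig_rec ρ (k * φ) φ
      push_cast
      rw [show ((k : ℝ) + 1) * φ + φ = k * φ + 2 * φ by ring, show ((k : ℝ) + 1) * φ = k * φ + φ by ring, t]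
      calc sin φ * (2 * x * cos φ * Gseq p q μ (k + 1) - x ^ 2 * Gseq p q μ k)
          = 2 * x * cos φ * (sin φ * Gseq p q μ (k + 1)) - x ^ 2 * (sin φ * Gseq p q μ k) := by ring
        _ = _ := by rw [e1, e2]; ring

/-- Telescoping a cosine sum over an arithmetic progression. -/
theorem cos_sum (φ c : ℝ) (m : ℕ) :
    2 * sin φ * ∑ k ∈ range m, cos (2 * k * φ + c) = sin (2 * m * φ + c - φ) - sin (c - φ) := by
  induction m with
  | zero => simp
  | succ m ih =>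
    rw [sum_range_succ, mul_add, ih]
    push_cast
    rw [show 2 * ((m : ℝ) + 1) * φ + c - φ = (2 * m * φ + c) + φ by ring,
      show 2 * (m : ℝ) * φ + c - φ = (2 * m * φ + c) - φ by ring, sin_add, sin_sub]
    ring

theorem sq_expand (ρ a φ : ℝ) : (ρ * sin a - sin (a - φ)) ^ 2 =
    ρ ^ 2 * ((1 - cos (2 * a)) / 2) - ρ * (cos φ - cos (2 * a - φ)) + (1 - cos (2 * a - 2 * φ)) / 2 := by
  have h1 : cos (2 * a) = 1 - 2 * sin a ^ 2 := by rw [cos_two_mul, cos_sq']; ring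
  have h2 : cos (2 * a - 2 * φ) = 1 - 2 * sin (a - φ) ^ 2 := by
    rw [show 2 * a - 2 * φ = 2 * (a - φ) by ring, cos_two_mul, cos_sq']; ring
  have h3 : cos φ = cos a * cos (a - φ) + sin a * sin (a - φ) := by
    rw [← cos_sub]; congr 1; ring
  have h4 : cos (2 * a - φ) = cos a * cos (a - φ) - sin a * sin (a - φ) := by
    rw [← cos_add]; congr 1; ring
  linear_combination (ρ ^ 2 / 2) * h1 + ρ * h3 - ρ * h4 + (1 / 2) * h2

/-- The sum of the squares, in terms of three cosine sums. -/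
theorem sum_sq (ρ φ d : ℝ) (m : ℕ) :
    ∑ k ∈ range m, (ρ * sin (k * φ + d) - sin (k * φ + d - φ)) ^ 2 =
      m * ((ρ ^ 2 - 2 * ρ * cos φ + 1) / 2) - ρ ^ 2 / 2 * ∑ k ∈ range m, cos (2 * k * φ + 2 * d)
        + ρ * ∑ k ∈ range m, cos (2 * k * φ + (2 * d - φ))
        - 1 / 2 * ∑ k ∈ range m, cos (2 * k * φ + (2 * d - 2 * φ)) := by
  induction m with
  | zero => simp
  | succ m ih =>
    rw [sum_range_succ, sum_range_succ, sum_range_succ, sum_range_succ, ih, sq_expand]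
    push_cast
    rw [show 2 * ((m : ℝ) * φ + d) - φ = 2 * m * φ + (2 * d - φ) by ring,
      show 2 * ((m : ℝ) * φ + d) - 2 * φ = 2 * m * φ + (2 * d - 2 * φ) by ring,
      show 2 * ((m : ℝ) * φ + d) = 2 * m * φ + 2 * d by ring]
    ring

/-- `sin² φ · R_k` in closed form. -/
theorem Rs_closed (p q μ x ρ φ : ℝ) (hx : x ^ 2 = p * q) (hx0 : x ≠ 0)
    (hT : (p + 1) * (q + 1) * μ - p - q = 2 * x * cos φ) (h1 : p * ((q + 1) * μ - 1) = x * ρ) (k : ℕ) :
    sin φ ^ 2 * Rs p q μ k = (ρ * sin (k * φ) - sin (k * φ - φ)) ^ 2 := by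
  unfold Rs
  rw [← hx]
  have hk := (Gseq_closed p q μ x ρ φ hx hT h1 k).1
  have hxk : x ^ k ≠ 0 := pow_ne_zero _ hx0
  have e : (x ^ 2) ^ k = (x ^ k) ^ 2 := by rw [← pow_mul, ← pow_mul, mul_comm]
  rw [e, ← mul_div_assoc, ← mul_pow, hk, mul_pow]
  exact mul_div_cancel_left₀ _ (pow_ne_zero 2 hxk)

end Cfsg.Agent.H23.FH
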