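import Mathlib
import Cfsg.Agent.H95.FHDefs
import Cfsg.Agent.H23.FHTrigBase

set_option autoImplicit false

/-!
# Feit–Higman (S1142), piece TRIGE: the trigonometric sum for `n` even
-/

namespace Cfsg.Agent.H23.FH

open Cfsg.Agent.H95.FH Finset Real

theorem alg_even (p q x C μ ρ : ℝ) (hp : 0 < p) (hq : 0 < q) (hx0 : 0 < x) (hx : x ^ 2 = p * q)
    (hμ : (p + 1) * (q + 1) * μ = p + q + 2 * x * C) (h1 : p * ((q + 1) * μ - 1) = x * ρ) :
    ((1 + p) + (1 + 1 / p)) * (ρ ^ 2 - 2 * ρ * C + 1) * (p * q) =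
      (p + q + 2 * x * C) * (p * q + 1 - 2 * x * C) := by
  have h1' : (p + 1) * (x * ρ) = p * (q - 1 + 2 * x * C) := by
    rw [← h1]; linear_combination p * hμ
  have hq' : q = x ^ 2 / p := by field_simp; linarith
  subst hq'
  have hw : ρ = p * (x ^ 2 / p - 1 + 2 * x * C) / ((p + 1) * x) := by
    field_simp
    field_simp at h1'
    linarith [h1']
  rw [hw]
  field_simp
  ring

theorem trigE (hG : GamStmt) : TrigEvenStmt := by
  intro p q n j hn hp hq hev hj hjn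
  obtain ⟨h, rfl⟩ := hev
  have hh : 1 ≤ h := by omega
  have hjh : j < h := by omega
  have hpR : (0 : ℝ) < p := by exact_mod_cast (by omega : 0 < p)
  have hqR : (0 : ℝ) < q := by exact_mod_cast (by omega : 0 < q)
  have hhR : (0 : ℝ) < h := by exact_mod_cast (by omega : 0 < h)
  have hjR : (0 : ℝ) < j := by exact_mod_cast (by omega : 0 < j)
  have hjhR : (j : ℝ) < h := by exact_mod_cast hjh
  have hx2 : Real.sqrt ((p : ℝ) * q) ^ 2 = p * q := Real.sq_sqrt (by positivity)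
  have hx0 : 0 < Real.sqrt ((p : ℝ) * q) := Real.sqrt_pos.mpr (by positivity)
  have hcast : (((h + h : ℕ)) : ℝ) = 2 * h := by push_cast; ring
  have hφ2 : 2 * (h : ℝ) * (2 * π * j / ((h + h : ℕ) : ℝ)) = j * (2 * π) := by
    rw [hcast]; field_simp
  have hφpos : 0 < 2 * π * j / ((h + h : ℕ) : ℝ) := by rw [hcast]; positivity
  have hφlt : 2 * π * j / ((h + h : ℕ) : ℝ) < π := by
    rw [hcast, div_lt_iff₀ (by positivity)]
    nlinarith [Real.pi_pos]
  unfold mu closed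
  generalize 2 * π * j / ((h + h : ℕ) : ℝ) = φ at hφ2 hφpos hφlt ⊢
  generalize Real.sqrt ((p : ℝ) * q) = x at hx2 hx0 ⊢
  rw [hcast, ← two_mul]
  generalize hμdef : ((p : ℝ) + q + 2 * x * cos φ) / (((p : ℝ) + 1) * ((q : ℝ) + 1)) = μ
  have hμ : ((p : ℝ) + 1) * (q + 1) * μ = p + q + 2 * x * cos φ := by
    rw [← hμdef]; field_simp
  generalize hρdef : (p : ℝ) * ((q + 1) * μ - 1) / x = ρ
  have h1 : (p : ℝ) * ((q + 1) * μ - 1) = x * ρ := by
    rw [← hρdef]; field_simp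
  have hT : ((p : ℝ) + 1) * (q + 1) * μ - p - q = 2 * x * cos φ := by linarith
  have hS : sin φ ≠ 0 := (sin_pos_of_pos_of_lt_pi hφpos hφlt).ne'
  have hsum0 : ∀ c : ℝ, ∑ k ∈ range h, cos (2 * k * φ + c) = 0 := by
    intro c
    have e := cos_sum φ c h
    rw [hφ2, show (j : ℝ) * (2 * π) + c - φ = (c - φ) + j * (2 * π) by ring, sin_add_nat_mul_two_pi,
      sub_self] at e
    rcases mul_eq_zero.mp e with e' | e'
    · exfalso; exact hS (by linarith)
    · exact e'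
  have hA : sin φ ^ 2 * ∑ i ∈ range h, Rs p q μ i = h * ((ρ ^ 2 - 2 * ρ * cos φ + 1) / 2) := by
    rw [mul_sum]
    have : ∀ i ∈ range h, sin φ ^ 2 * Rs p q μ i =
        (ρ * sin (i * φ + 0) - sin (i * φ + 0 - φ)) ^ 2 := by
      intro i _; rw [Rs_closed p q μ x ρ φ hx2 hx0.ne' hT h1 i, add_zero]
    rw [sum_congr rfl this, sum_sq, hsum0, hsum0, hsum0]; ring
  have hB : sin φ ^ 2 * ∑ i ∈ range h, Rs p q μ (i + 1) = h * ((ρ ^ 2 - 2 * ρ * cos φ + 1) / 2) := by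
    rw [mul_sum]
    have : ∀ i ∈ range h, sin φ ^ 2 * Rs p q μ (i + 1) =
        (ρ * sin (i * φ + φ) - sin (i * φ + φ - φ)) ^ 2 := by
      intro i _
      rw [Rs_closed p q μ x ρ φ hx2 hx0.ne' hT h1 (i + 1)]
      push_cast
      rw [show ((i : ℝ) + 1) * φ = i * φ + φ by ring]
    rw [sum_congr rfl this, sum_sq, hsum0, hsum0, hsum0]; ring
  rw [Ssum_even hG p q μ hpR.ne' hqR.ne' h hh]
  have hS2 : sin φ ^ 2 = 1 - cos φ ^ 2 := by rw [← sin_sq_add_cos_sq φ]; ring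
  have hSpos : 0 < sin φ ^ 2 := by positivity
  rw [eq_div_iff (by rw [← hS2]; positivity), ← hS2]
  have e : ((1 + (p : ℝ)) * ∑ i ∈ range h, Rs p q μ i + (1 + 1 / (p : ℝ)) * ∑ i ∈ range h, Rs p q μ (i + 1)) *
      (4 * p * q * sin φ ^ 2) = 4 * p * q * ((1 + (p : ℝ)) * (sin φ ^ 2 * ∑ i ∈ range h, Rs p q μ i) +
        (1 + 1 / (p : ℝ)) * (sin φ ^ 2 * ∑ i ∈ range h, Rs p q μ (i + 1))) := by ring
  rw [e, hA, hB]
  have alg := alg_even p q x (cos φ) μ ρ hpR hqR hx0 hx2 hμ h1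
  linear_combination (2 * (h : ℝ)) * alg

example (hG : GamStmt) : TrigEvenStmt := trigE hG

end Cfsg.Agent.H23.FH
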