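import Mathlib
import Cfsg.Agent.H95.FHDefs
import Cfsg.Agent.H23.FHTrigBase

set_option autoImplicit false

/-!
# Feit–Higman (S1142), piece TRIGO: the trigonometric sum for `n` odd
-/

namespace Cfsg.Agent.H23.FH

open Cfsg.Agent.H95.FH Finset Real

theorem cos_sum' (φ c δ : ℝ) (m j : ℕ) (hm : 2 * (m : ℝ) * φ = j * (2 * π) + δ) :
    2 * sin φ * ∑ k ∈ range m, cos (2 * k * φ + c) = sin (δ + c - φ) - sin (c - φ) := by
  rw [cos_sum, hm, show (j : ℝ) * (2 * π) + δ + c - φ = (δ + c - φ) + j * (2 * π) by ring,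
    sin_add_nat_mul_two_pi]

theorem alg_odd (p C μ ρ h S2 : ℝ) (hp : 0 < p) (hμ : (p + 1) * (p + 1) * μ = p + p + 2 * p * C)
    (h1 : p * ((p + 1) * μ - 1) = p * ρ) (hS2 : S2 = 1 - C ^ 2) :
    4 * p * p * ((1 + p) * ((h + 1) * ((ρ ^ 2 - 2 * ρ * C + 1) / 2) - ρ ^ 2 / 2 * (1 / 2)
        + ρ * (C - 1 / 2) - 1 / 2 * ((3 - 2 * C - 4 * S2) / 2))
      + (1 + 1 / p) * (h * ((ρ ^ 2 - 2 * ρ * C + 1) / 2) - ρ ^ 2 / 2 * (-1 / 2)
        + ρ * (-1 / 2) - 1 / 2 * ((1 - 2 * C) / 2))) =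
      (2 * h + 1) * (p + p + 2 * p * C) * (p * p + 1 - 2 * p * C) := by
  have h2 : (p + 1) * μ - 1 = ρ := mul_left_cancel₀ hp.ne' h1
  have hw : ρ = (p - 1 + 2 * p * C) / (p + 1) := by
    rw [eq_div_iff (by positivity)]
    rw [← h2]
    linear_combination hμ
  subst hS2
  rw [hw]
  field_simp
  ring

theorem trigO (hG : GamStmt) : TrigOddStmt := by
  intro p n j hn hp hodd hj hjn
  obtain ⟨h, rfl⟩ := hodd
  have hh : 1 ≤ h := by omega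
  have hjh : j ≤ h := by omega
  have hpR : (0 : ℝ) < p := by exact_mod_cast (by omega : 0 < p)
  have hhR : (0 : ℝ) < h := by exact_mod_cast (by omega : 0 < h)
  have hjR : (0 : ℝ) < j := by exact_mod_cast (by omega : 0 < j)
  have hjhR : (j : ℝ) ≤ h := by exact_mod_cast hjh
  have hx : Real.sqrt ((p : ℝ) * p) = p := Real.sqrt_mul_self hpR.le
  have hcast : (((2 * h + 1 : ℕ)) : ℝ) = 2 * h + 1 := by push_cast; ring
  have hφ2 : (2 * (h : ℝ) + 1) * (2 * π * j / ((2 * h + 1 : ℕ) : ℝ)) = j * (2 * π) := by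
    rw [hcast]; field_simp
  have hφpos : 0 < 2 * π * j / ((2 * h + 1 : ℕ) : ℝ) := by rw [hcast]; positivity
  have hφlt : 2 * π * j / ((2 * h + 1 : ℕ) : ℝ) < π := by
    rw [hcast, div_lt_iff₀ (by positivity)]
    nlinarith [Real.pi_pos]
  unfold mu closed
  rw [hx]
  generalize 2 * π * j / ((2 * h + 1 : ℕ) : ℝ) = φ at hφ2 hφpos hφlt ⊢
  rw [hcast]
  generalize hμdef : ((p : ℝ) + p + 2 * p * cos φ) / (((p : ℝ) + 1) * ((p : ℝ) + 1)) = μ
  have hμ : ((p : ℝ) + 1) * (p + 1) * μ = p + p + 2 * p * cos φ := by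
    rw [← hμdef]; field_simp
  generalize hρdef : (p : ℝ) * ((p + 1) * μ - 1) / p = ρ
  have h1 : (p : ℝ) * ((p + 1) * μ - 1) = p * ρ := by
    rw [← hρdef]; field_simp
  have hT : ((p : ℝ) + 1) * (p + 1) * μ - p - p = 2 * p * cos φ := by linarith
  have hSpos : 0 < sin φ := sin_pos_of_pos_of_lt_pi hφpos hφlt
  have hS : sin φ ≠ 0 := hSpos.ne'
  have h2S : 2 * sin φ ≠ 0 := by positivity
  have hS2 : sin φ ^ 2 = 1 - cos φ ^ 2 := by rw [← sin_sq_add_cos_sq φ]; ring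
  have hm1 : 2 * ((h + 1 : ℕ) : ℝ) * φ = j * (2 * π) + φ := by push_cast; linarith
  have hm0 : 2 * (h : ℝ) * φ = j * (2 * π) + (-φ) := by linarith
  have hpp : (p : ℝ) ^ 2 = p * p := sq (p : ℝ)
  -- the six cosine sums
  have s0 : ∑ k ∈ range (h + 1), cos (2 * k * φ + 2 * 0) = 1 / 2 := by
    apply mul_left_cancel₀ h2S
    rw [cos_sum' φ _ φ (h + 1) j hm1, show φ + 2 * 0 - φ = 0 by ring, show 2 * 0 - φ = -φ by ring,
      sin_zero, sin_neg]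
    ring
  have s1 : ∑ k ∈ range (h + 1), cos (2 * k * φ + (2 * 0 - φ)) = cos φ - 1 / 2 := by
    apply mul_left_cancel₀ h2S
    rw [cos_sum' φ _ φ (h + 1) j hm1, show φ + (2 * 0 - φ) - φ = -φ by ring,
      show 2 * 0 - φ - φ = -(2 * φ) by ring, sin_neg, sin_neg, sin_two_mul]
    ring
  have s2 : ∑ k ∈ range (h + 1), cos (2 * k * φ + (2 * 0 - 2 * φ)) =
      (3 - 2 * cos φ - 4 * sin φ ^ 2) / 2 := by
    apply mul_left_cancel₀ h2S
    rw [cos_sum' φ _ φ (h + 1) j hm1, show φ + (2 * 0 - 2 * φ) - φ = -(2 * φ) by ring,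
      show 2 * 0 - 2 * φ - φ = -(3 * φ) by ring, sin_neg, sin_neg, sin_two_mul, sin_three_mul]
    ring
  have t0 : ∑ k ∈ range h, cos (2 * k * φ + 2 * φ) = -1 / 2 := by
    apply mul_left_cancel₀ h2S
    rw [cos_sum' φ _ (-φ) h j hm0, show -φ + 2 * φ - φ = 0 by ring, show 2 * φ - φ = φ by ring,
      sin_zero]
    ring
  have t1 : ∑ k ∈ range h, cos (2 * k * φ + (2 * φ - φ)) = -1 / 2 := by
    apply mul_left_cancel₀ h2S
    rw [cos_sum' φ _ (-φ) h j hm0, show -φ + (2 * φ - φ) - φ = -φ by ring,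
      show 2 * φ - φ - φ = 0 by ring, sin_zero, sin_neg]
    ring
  have t2 : ∑ k ∈ range h, cos (2 * k * φ + (2 * φ - 2 * φ)) = (1 - 2 * cos φ) / 2 := by
    apply mul_left_cancel₀ h2S
    rw [cos_sum' φ _ (-φ) h j hm0, show -φ + (2 * φ - 2 * φ) - φ = -(2 * φ) by ring,
      show 2 * φ - 2 * φ - φ = -φ by ring, sin_neg, sin_neg, sin_two_mul]
    ring
  have hA : sin φ ^ 2 * ∑ i ∈ range (h + 1), Rs p p μ i =
      ((h : ℝ) + 1) * ((ρ ^ 2 - 2 * ρ * cos φ + 1) / 2) - ρ ^ 2 / 2 * (1 / 2)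
        + ρ * (cos φ - 1 / 2) - 1 / 2 * ((3 - 2 * cos φ - 4 * sin φ ^ 2) / 2) := by
    rw [mul_sum]
    have : ∀ i ∈ range (h + 1), sin φ ^ 2 * Rs p p μ i =
        (ρ * sin (i * φ + 0) - sin (i * φ + 0 - φ)) ^ 2 := by
      intro i _; rw [Rs_closed p p μ p ρ φ hpp hpR.ne' hT h1 i, add_zero]
    rw [sum_congr rfl this, sum_sq, s0, s1, s2]
    push_cast
    ring
  have hB : sin φ ^ 2 * ∑ i ∈ range h, Rs p p μ (i + 1) =
      (h : ℝ) * ((ρ ^ 2 - 2 * ρ * cos φ + 1) / 2) - ρ ^ 2 / 2 * (-1 / 2)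
        + ρ * (-1 / 2) - 1 / 2 * ((1 - 2 * cos φ) / 2) := by
    rw [mul_sum]
    have : ∀ i ∈ range h, sin φ ^ 2 * Rs p p μ (i + 1) =
        (ρ * sin (i * φ + φ) - sin (i * φ + φ - φ)) ^ 2 := by
      intro i _
      rw [Rs_closed p p μ p ρ φ hpp hpR.ne' hT h1 (i + 1)]
      push_cast
      rw [show ((i : ℝ) + 1) * φ = i * φ + φ by ring]
    rw [sum_congr rfl this, sum_sq, t0, t1, t2]
  rw [Ssum_odd hG p p μ hpR.ne' hpR.ne' h]
  have hSpos2 : 0 < sin φ ^ 2 := by positivity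
  rw [eq_div_iff (by rw [← hS2]; positivity), ← hS2]
  have e : ((1 + (p : ℝ)) * ∑ i ∈ range (h + 1), Rs p p μ i +
      (1 + 1 / (p : ℝ)) * ∑ i ∈ range h, Rs p p μ (i + 1)) * (4 * p * p * sin φ ^ 2) =
      4 * p * p * ((1 + (p : ℝ)) * (sin φ ^ 2 * ∑ i ∈ range (h + 1), Rs p p μ i) +
        (1 + 1 / (p : ℝ)) * (sin φ ^ 2 * ∑ i ∈ range h, Rs p p μ (i + 1))) := by ring
  rw [e, hA, hB]
  exact alg_odd p (cos φ) μ ρ h (sin φ ^ 2) hpR hμ h1 hS2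

example (hG : GamStmt) : TrigOddStmt := trigO hG

end Cfsg.Agent.H23.FH
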