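import Cfsg.Agent.H23.FoldG2d

set_option autoImplicit false
set_option maxRecDepth 100000

/-!
# The fixed points of the triality graph automorphism of `D₄(F)` form a group isomorphic to `G₂(F)`
-/

namespace Cfsg.Agent.H23

open Cfsg.Lie

section

variable {F : Type*} [Field F]

/-- The fixed points of the standard triality graph automorphism of `D₄(F)` are `twistedD4 F 1`. -/
theorem graphD4_fix : ∃ α : ↥(chevD4.group F) ≃* ↥(chevD4.group F),
    (∀ (g : ↥(chevD4.group F)) (i : ℕ) (t : F), i < chevD4.rank →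
      (((g : GL chevD4.Idx F) : Matrix chevD4.Idx chevD4.Idx F) = chevD4.x F (chevD4.simple i) t →
        ((α g : GL chevD4.Idx F) : Matrix chevD4.Idx chevD4.Idx F) =
          chevD4.x F (chevD4.simple ([2, 1, 3, 0].getD i 0)) t) ∧
      (((g : GL chevD4.Idx F) : Matrix chevD4.Idx chevD4.Idx F) = chevD4.x F (chevD4.neg (chevD4.simple i)) t →
        ((α g : GL chevD4.Idx F) : Matrix chevD4.Idx chevD4.Idx F) =
          chevD4.x F (chevD4.neg (chevD4.simple ([2, 1, 3, 0].getD i 0))) t)) ∧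
    ∀ g : ↥(chevD4.group F), α g = g ↔ (g : GL chevD4.Idx F) ∈ twistedD4 F 1 := by
  obtain ⟨α, hα⟩ := graph_aut chk_D4.tblOK graphOK_D4a F
  obtain ⟨T, B, hG, hblk, hφ, hsig, hBS, hgen, hfix⟩ := tw_D4one (F := F)
  have hS := (packB_D4 F).sem
  have hN := (packB_D4 F).semN
  have hT := (packB_D4 F).tab
  refine ⟨α, hα, ?_⟩
  have key : ((chevD4.group F).subtype).comp α.toMonoidHom = T.σ.comp (chevD4.group F).subtype := by
    apply hom_ext_fund hS hN hT
    intro g i t hi hg
    show ((α g : ↥(chevD4.group F)) : GL chevD4.Idx F) = T.σ (g : GL chevD4.Idx F)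
    rcases hg with hg | hg
    · rw [eq_xU hS _ _ t hg, T.x_simple hT i hi t, hsig, hφ]
      exact eq_xU hS _ _ t ((hα g i t hi).1 hg)
    · rw [eq_xU hS _ _ t hg, T.x_nsimple hT i hi t, hsig, hφ]
      exact eq_xU hS _ _ t ((hα g i t hi).2 hg)
  intro g
  have e : ((α g : ↥(chevD4.group F)) : GL chevD4.Idx F) = T.σ (g : GL chevD4.Idx F) :=
    DFunLike.congr_fun key g
  constructor
  · intro h
    apply hfix _ g.2
    rw [← e, h]
  · intro h
    apply Subtype.ext
    rw [e]; exact hG.fix _ h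

/-- The fixed points of an automorphism with the same fixed points as the standard triality graph automorphism
form a group isomorphic to `G₂(F)`. -/
theorem fixD4_equiv_G2 (τ : MulAut ↥(chevD4.group F))
    (hfix : ∀ σ : ↥(chevD4.group F) ≃* ↥(chevD4.group F),
      (∀ (g : ↥(chevD4.group F)) (i : ℕ) (t : F), i < chevD4.rank →
        (((g : GL chevD4.Idx F) : Matrix chevD4.Idx chevD4.Idx F) = chevD4.x F (chevD4.simple i) t →
          ((σ g : GL chevD4.Idx F) : Matrix chevD4.Idx chevD4.Idx F) =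
            chevD4.x F (chevD4.simple ([2, 1, 3, 0].getD i 0)) t) ∧
        (((g : GL chevD4.Idx F) : Matrix chevD4.Idx chevD4.Idx F) = chevD4.x F (chevD4.neg (chevD4.simple i)) t →
          ((σ g : GL chevD4.Idx F) : Matrix chevD4.Idx chevD4.Idx F) =
            chevD4.x F (chevD4.neg (chevD4.simple ([2, 1, 3, 0].getD i 0))) t)) →
      ∀ g : ↥(chevD4.group F), τ g = g ↔ σ g = g) :
    Nonempty (↥(MonoidHom.eqLocus τ.toMonoidHom (MonoidHom.id ↥(chevD4.group F))) ≃* ↥(chevG2.group F)) := by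
  obtain ⟨α, hα, hαfix⟩ := graphD4_fix (F := F)
  have h1 := hfix α hα
  have hle : twistedD4 F 1 ≤ chevD4.group F := by
    obtain ⟨T, B, hG, -⟩ := tw_D4one (F := F)
    exact hG.le
  have e1 : MonoidHom.eqLocus τ.toMonoidHom (MonoidHom.id ↥(chevD4.group F)) =
      (twistedD4 F 1).subgroupOf (chevD4.group F) := by
    ext g
    rw [Subgroup.mem_subgroupOf, ← hαfix, ← h1]
    rfl
  exact ⟨(MulEquiv.subgroupCongr e1).trans ((Subgroup.subgroupOfEquivOfLe hle).trans
    ((MonoidHom.ofInjective foldG2Hom_injective).trans (MulEquiv.subgroupCongr foldG2Hom_range)))⟩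

end

end Cfsg.Agent.H23
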