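import Cfsg.Agent.H23.Gens
import Cfsg.Prelude.Def_ChevAutomorphisms

set_option autoImplicit false

/-!
# Generation of the Chevalley group by `N` and few fundamental root subgroups
-/

namespace Cfsg.Agent.H23

open Cfsg.Lie

variable {D : ChevalleyDatum} {F : Type*} [Field F] {z η : ℕ → ℕ → ℤ}

/-- Certificate: fundamental roots of the same length are conjugate under the Weyl group, by explicit words. -/
structure ConjOK (D : ChevalleyDatum) (rT : List ℕ) (wt : List (List ℕ)) : Prop where
  conj : ∀ i < D.rank, ∀ j < D.rank, D.isLong (D.simple i) = D.isLong (D.simple j) →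
    (∀ a ∈ wt.getD (i * D.rank + j) [], a < D.rank) ∧
      reflWT rT (wt.getD (i * D.rank + j) []) (D.simple j) = D.simple i

/-- Certificate: either no fundamental root is long, or some root conjugate to a long fundamental root is the sum
of a short fundamental root and a root conjugate to a short fundamental root, the commutator formula of the pair
having the single coefficient `k`. -/
structure LongOK (D : ChevalleyDatum) (rT : List ℕ) (k : ℤ) : Prop where
  long : (∀ j < D.rank, D.isLong (D.simple j) = false) ∨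
    ∃ i0 < D.rank, ∃ s0 < D.nroots, ∃ (w1 : List ℕ) (i1 c0 : ℕ) (w0 : List ℕ) (j0 : ℕ),
      D.isLong (D.simple i0) = false ∧ D.IsPosRoot s0 ∧ s0 ≠ D.simple i0 ∧ i1 < D.rank ∧
      (∀ a ∈ w1, a < D.rank) ∧ reflWT rT w1 s0 = D.simple i1 ∧ D.isLong (D.simple i1) = false ∧
      D.commTerms (D.simple i0) s0 = [(c0, k, 1, 1)] ∧ c0 < D.nroots ∧ (∀ a ∈ w0, a < D.rank) ∧
      reflWT rT w0 c0 = D.simple j0 ∧ j0 < D.rank ∧ D.isLong (D.simple j0) = true

/-- A subgroup containing `N` contains the root subgroup of `r` iff it contains that of `w(r)`. -/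
theorem conj_mem_iff (hS : Sem D F z) (hN : SemN D F η) (hT : Tab D) (M : Subgroup (GL D.Idx F))
    (hM : D.monomialSubgroup F ≤ M) (w : List ℕ) (hw : ∀ i ∈ w, i < D.rank) (r : ℕ) (hr : r < D.nroots) :
    (∀ t : F, xU hS r t ∈ M) ↔ (∀ t : F, xU hS (reflW D w r) t ∈ M) := by
  obtain ⟨c, hc, h⟩ := nWU_conj hS hN hT w hw r hr
  have hn : nWU hS w ∈ M := hM (nWU_mem hS hT w hw)
  have hcc : c * c = 1 := by rcases hc with rfl | rfl <;> simp
  constructor
  · intro h1 t
    have h2 := h (c * t)
    rw [← mul_assoc, hcc, one_mul] at h2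
    rw [← h2]
    exact Subgroup.mul_mem _ (Subgroup.mul_mem _ hn (h1 _)) (Subgroup.inv_mem _ hn)
  · intro h1 t
    have h2 : xU hS r t = (nWU hS w)⁻¹ * xU hS (reflW D w r) (c * t) * nWU hS w := by
      rw [← h t]; group
    rw [h2]
    exact Subgroup.mul_mem _ (Subgroup.mul_mem _ (Subgroup.inv_mem _ hn) (h1 _)) hn

/-- A subgroup containing `N` and all fundamental root subgroups contains the Chevalley group. -/
theorem group_le_of_simple (hS : Sem D F z) (hN : SemN D F η) (hT : Tab D) (M : Subgroup (GL D.Idx F))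
    (hM : D.monomialSubgroup F ≤ M) (h : ∀ j < D.rank, ∀ t : F, xU hS (D.simple j) t ∈ M) :
    D.group F ≤ M := by
  unfold ChevalleyDatum.group
  rw [Subgroup.closure_le]
  rintro g ⟨r, t, hg⟩
  have : g = xU hS r.val t := eq_xU hS g r.val t (by rw [hg, ChevalleyDatum.x, dif_pos r.isLt])
  rw [this]
  obtain ⟨w, hw, j, hj, e⟩ := exists_word_to_simple hT r.val r.isLt
  exact (conj_mem_iff hS hN hT M hM w hw r.val r.isLt).mpr (by rw [e]; exact h j hj) t

/-- A subgroup containing `N` and a fundamental root subgroup contains the root subgroups of all fundamental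
roots of the same length. -/
theorem simple_mem_of_conj (hS : Sem D F z) (hN : SemN D F η) {rT : List ℕ} (hTT : TabT D rT)
    {wt : List (List ℕ)} (hC : ConjOK D rT wt) (M : Subgroup (GL D.Idx F))
    (hM : D.monomialSubgroup F ≤ M) (i : ℕ) (hi : i < D.rank) (h : ∀ t : F, xU hS (D.simple i) t ∈ M)
    (j : ℕ) (hj : j < D.rank) (hij : D.isLong (D.simple i) = D.isLong (D.simple j)) (t : F) :
    xU hS (D.simple j) t ∈ M := by
  obtain ⟨hw, e⟩ := hC.conj i hi j hj hij
  rw [← reflW_eq hTT _ hw _ (hTT.simple_lt j hj)] at e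
  exact (conj_mem_iff hS hN hTT.tab M hM _ hw _ (hTT.simple_lt j hj)).mpr (by rw [e]; exact h) t

/-- The Chevalley group is generated by `N` and one short and one long fundamental root subgroup. -/
theorem group_le_mono_sup_two (hS : Sem D F z) (hN : SemN D F η) {rT : List ℕ} (hTT : TabT D rT)
    {wt : List (List ℕ)} (hC : ConjOK D rT wt) (i j : ℕ) (hi : i < D.rank) (hj : j < D.rank)
    (hshort : D.isLong (D.simple i) = false) (hlong : D.isLong (D.simple j) = true) :
    D.group F ≤ D.monomialSubgroup F ⊔ D.rootSubgroup F (D.simple i) ⊔ D.rootSubgroup F (D.simple j) := by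
  have hM : D.monomialSubgroup F ≤
      D.monomialSubgroup F ⊔ D.rootSubgroup F (D.simple i) ⊔ D.rootSubgroup F (D.simple j) :=
    le_sup_left.trans le_sup_left
  apply group_le_of_simple hS hN hTT.tab _ hM
  intro k hk t
  rcases hb : D.isLong (D.simple k) with _ | _
  · exact simple_mem_of_conj hS hN hTT hC _ hM i hi
      (fun t => (le_sup_right.trans le_sup_left : D.rootSubgroup F (D.simple i) ≤ _)
        (xU_mem_rootSubgroup hS _ t)) k hk (by rw [hshort, hb]) t
  · exact simple_mem_of_conj hS hN hTT hC _ hM j hj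
      (fun t => (le_sup_right : D.rootSubgroup F (D.simple j) ≤ _)
        (xU_mem_rootSubgroup hS _ t)) k hk (by rw [hlong, hb]) t

/-- The Chevalley group is generated by `N` and one short fundamental root subgroup, when the coefficient `k` of
the certificate is invertible in the field. -/
theorem group_le_mono_sup_root (hS : Sem D F z) (hN : SemN D F η) (hSC : SemC D F) {rT : List ℕ}
    (hTT : TabT D rT) {wt : List (List ℕ)} (hC : ConjOK D rT wt) {k : ℤ} (hL : LongOK D rT k)
    (hk : ((k : ℤ) : F) ≠ 0) (i : ℕ) (hi : i < D.rank) (hshort : D.isLong (D.simple i) = false) :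
    D.group F ≤ D.monomialSubgroup F ⊔ D.rootSubgroup F (D.simple i) := by
  have hT := hTT.tab
  have hM : D.monomialSubgroup F ≤ D.monomialSubgroup F ⊔ D.rootSubgroup F (D.simple i) := le_sup_left
  have hsh : ∀ j < D.rank, D.isLong (D.simple j) = false → ∀ t : F,
      xU hS (D.simple j) t ∈ D.monomialSubgroup F ⊔ D.rootSubgroup F (D.simple i) := by
    intro j hj hb t
    exact simple_mem_of_conj hS hN hTT hC _ hM i hi
      (fun t => (le_sup_right : D.rootSubgroup F (D.simple i) ≤ _) (xU_mem_rootSubgroup hS _ t))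
      j hj (by rw [hshort, hb]) t
  apply group_le_of_simple hS hN hT _ hM
  intro j hj t
  rcases hb : D.isLong (D.simple j) with _ | _
  · exact hsh j hj hb t
  · rcases hL.long with h0 | ⟨i0, hi0, s0, hs0, w1, i1, c0, w0, j0, hi0s, hpos, hne, hi1, hw1, e1, hi1s, hct, hc0,
      hw0, e0, hj0, hj0l⟩
    · rw [h0 j hj] at hb; exact absurd hb (by simp)
    · -- the root subgroup of `s0`
      rw [← reflW_eq hTT _ hw1 _ hs0] at e1
      have hs0M : ∀ u : F, xU hS s0 u ∈ D.monomialSubgroup F ⊔ D.rootSubgroup F (D.simple i) :=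
        (conj_mem_iff hS hN hT _ hM w1 hw1 s0 hs0).mpr (by rw [e1]; exact hsh i1 hi1 hi1s)
      have hi0M := hsh i0 hi0 hi0s
      -- the root subgroup of `c0`
      have hc0M : ∀ v : F, xU hS c0 v ∈ D.monomialSubgroup F ⊔ D.rootSubgroup F (D.simple i) := by
        intro v
        have hcomm := hSC.comm i0 hi0 s0 hpos hne (-(v / (k : F))) 1
        have e : xU hS s0 1 * xU hS (D.simple i0) (-(v / (k : F))) =
            xU hS (D.simple i0) (-(v / (k : F))) * xU hS s0 1 *
              wordU hS (D.commWord F (D.simple i0) s0 (-(v / (k : F))) 1) :=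
          Units.ext (by simp only [Units.val_mul, xU_val, wordU_val]; exact hcomm)
        have e2 : wordU hS (D.commWord F (D.simple i0) s0 (-(v / (k : F))) 1) = xU hS c0 v := by
          unfold ChevalleyDatum.commWord
          rw [hct]
          simp only [List.map_cons, List.map_nil, wordU_cons, wordU_nil, mul_one]
          congr 1
          field_simp
        rw [e2] at e
        have e3 : xU hS c0 v = (xU hS (D.simple i0) (-(v / (k : F))) * xU hS s0 1)⁻¹ *
            (xU hS s0 1 * xU hS (D.simple i0) (-(v / (k : F)))) := by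
          rw [e]; group
        rw [e3]
        exact Subgroup.mul_mem _ (Subgroup.inv_mem _ (Subgroup.mul_mem _ (hi0M _) (hs0M _)))
          (Subgroup.mul_mem _ (hs0M _) (hi0M _))
      rw [← reflW_eq hTT _ hw0 _ hc0] at e0
      have hj0M : ∀ t : F, xU hS (D.simple j0) t ∈ D.monomialSubgroup F ⊔ D.rootSubgroup F (D.simple i) := by
        have := (conj_mem_iff hS hN hT _ hM w0 hw0 c0 hc0).mp hc0M
        rw [e0] at this
        exact this
      exact simple_mem_of_conj hS hN hTT hC _ hM j0 hj0 hj0M j hj (by rw [hj0l, hb]) t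

end Cfsg.Agent.H23
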