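import Mathlib
import Cfsg.Agent.H56.OrdDefs

/-!
# S2363 pieces (helper23, for helper56): arithmetic helpers for the order bounds
-/

set_option autoImplicit false

namespace Cfsg.Agent.H23.GoodOrd

open Cfsg.Agent.H56.Ord

theorem good_of_bound {X : Type*} [Group X] {p f q N c M B : ℕ} (hp : p.Prime) (hq : q = p ^ f)
    (hf : f ≠ 0) (h : c * Nat.card X = q ^ N * M) (hc : Nat.Coprime q c) (hM : Nat.Coprime q M)
    (hB : M < q ^ B) (hB2 : B ≤ 2 * N) (hB5 : 3 * B ≤ 5 * N) : Good p X := by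
  have hq1 : 1 ≤ q := by
    rw [hq]
    exact Nat.one_le_pow _ _ hp.pos
  refine good_of_eq_q hp hq hf h hc hM ?_ ?_
  · exact lt_of_lt_of_le hB (Nat.pow_le_pow_right hq1 hB2)
  · calc M ^ 3 < (q ^ B) ^ 3 := Nat.pow_lt_pow_left hB (by norm_num)
      _ = q ^ (3 * B) := by rw [← pow_mul, mul_comm]
      _ ≤ q ^ (5 * N) := Nat.pow_le_pow_right hq1 hB5

theorem mul_lt_pow {q a b i j : ℕ} (ha : a < q ^ i) (hb : b < q ^ j) : a * b < q ^ (i + j) := by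
  rw [pow_add]
  exact Nat.mul_lt_mul'' ha hb

theorem sub_one_lt {q : ℕ} (hq : 2 ≤ q) (d : ℕ) : q ^ d - 1 < q ^ d := by
  have : 1 ≤ q ^ d := Nat.one_le_pow _ _ (by omega)
  omega

theorem add_one_lt {q : ℕ} (hq : 2 ≤ q) {d : ℕ} (hd : 1 ≤ d) : q ^ d + 1 < q ^ (d + 1) := by
  have h1 : 2 ≤ q ^ d := le_trans hq (Nat.le_self_pow (by omega) q)
  have h2 : q ^ (d + 1) = q ^ d * q := pow_succ q d
  have h3 : q ^ d * 2 ≤ q ^ d * q := Nat.mul_le_mul_left _ hq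
  omega

theorem two_le_card {p f q : ℕ} (hp : p.Prime) (hq : q = p ^ f) (hf : f ≠ 0) : 2 ≤ q := by
  rw [hq]
  exact le_trans hp.two_le (Nat.le_self_pow hf p)

theorem pow_of_isPrimePow {p q f : ℕ} (hp : p.Prime) (hq : IsPrimePow q) (e : ℕ) (he : e ≠ 0)
    (h : q ^ e = p ^ f) : ∃ g, g ≠ 0 ∧ q = p ^ g := by
  obtain ⟨r, k, hr, hk, rfl⟩ := hq
  have hr' : r.Prime := Nat.prime_iff.mpr hr
  have h1 : r ∣ p ^ f := by
    rw [← h]
    exact dvd_pow (dvd_pow_self r hk.ne') he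
  have h2 : r = p := (Nat.prime_dvd_prime_iff_eq hr' hp).mp (hr'.dvd_of_dvd_pow h1)
  exact ⟨k, hk.ne', by rw [h2]⟩

theorem coprime_gcd_sub {q : ℕ} (hq : q ≠ 0) (n : ℕ) : Nat.Coprime q (Nat.gcd n (q - 1)) := by
  have h1 : Nat.Coprime q (q ^ 1 - 1) := coprime_pow_sub_one hq one_ne_zero
  rw [pow_one] at h1
  exact Nat.Coprime.coprime_dvd_right (Nat.gcd_dvd_right n (q - 1)) h1

theorem coprime_gcd_add (q n : ℕ) : Nat.Coprime q (Nat.gcd n (q + 1)) := by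
  have h1 : Nat.Coprime q (q ^ 1 + 1) := coprime_pow_add_one q one_ne_zero
  rw [pow_one] at h1
  exact Nat.Coprime.coprime_dvd_right (Nat.gcd_dvd_right n (q + 1)) h1

end Cfsg.Agent.H23.GoodOrd
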