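import Mathlib
import Cfsg.Agent.H56.OrdDefs
import Cfsg.Agent.H23.GoodBase
import Cfsg.Agent.S1064

/-!
# S2363-E7 (helper23, for helper56): the order bounds for `E₇(F)`
-/

set_option autoImplicit false

namespace Cfsg.Agent.H23.GoodOrd

open Cfsg Cfsg.Agent.H56.Ord

theorem goodE7 : Cfsg.Agent.H56.Ord.E7Stmt := by
  intro p hp F _ _ _
  obtain ⟨f, hf, hq⟩ := card_eq_pow p F
  have h := Cfsg.Agent.S1064.result (F := F) (q := Fintype.card F) rfl
  generalize Fintype.card F = q at h hq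
  have hq2 : 2 ≤ q := two_le_card hp hq hf
  have hq0 : q ≠ 0 := by omega
  refine good_of_bound (N := 63) (c := Nat.gcd 2 (q - 1))
    (M := (q ^ 2 - 1) * (q ^ 6 - 1) * (q ^ 8 - 1) * (q ^ 10 - 1) * (q ^ 12 - 1) * (q ^ 14 - 1) *
      (q ^ 18 - 1))
    (B := 2 + 6 + 8 + 10 + 12 + 14 + 18) hp hq hf ?_ (coprime_gcd_sub hq0 2) ?_ ?_ (by norm_num)
    (by norm_num)
  · rw [h]; ring
  · refine Nat.Coprime.mul_right (Nat.Coprime.mul_right (Nat.Coprime.mul_right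
      (Nat.Coprime.mul_right (Nat.Coprime.mul_right (Nat.Coprime.mul_right ?_ ?_) ?_) ?_) ?_) ?_)
      ?_ <;>
      exact coprime_pow_sub_one hq0 (by norm_num)
  · exact mul_lt_pow (mul_lt_pow (mul_lt_pow (mul_lt_pow (mul_lt_pow (mul_lt_pow
      (sub_one_lt hq2 2) (sub_one_lt hq2 6)) (sub_one_lt hq2 8)) (sub_one_lt hq2 10))
      (sub_one_lt hq2 12)) (sub_one_lt hq2 14)) (sub_one_lt hq2 18)

example : Cfsg.Agent.H56.Ord.E7Stmt := goodE7

end Cfsg.Agent.H23.GoodOrd
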