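import Mathlib
import Cfsg.Agent.H56.OrdDefs
import Cfsg.Agent.H23.GoodBase
import Cfsg.Agent.S1067

/-!
# S2363-TWD4 (helper23, for helper56): the order bounds for `³D₄(q)`
-/

set_option autoImplicit false

namespace Cfsg.Agent.H23.GoodOrd

open Cfsg Cfsg.Agent.H56.Ord

theorem goodTwD4 : Cfsg.Agent.H56.Ord.TwD4Stmt := by
  intro p hp K _ _ _ q hqpp hK
  obtain ⟨f, hf, hKf⟩ := card_eq_pow p K
  obtain ⟨g, hg, hq⟩ := pow_of_isPrimePow hp hqpp 3 (by norm_num) (hK ▸ hKf)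
  have h := Cfsg.Agent.S1067.result (K := K) (q := q) hqpp hK
  have hq2 : 2 ≤ q := two_le_card hp hq hg
  have hq0 : q ≠ 0 := by omega
  have h84 : q ^ 8 + q ^ 4 + 1 < q ^ 9 := by
    have h4 : 2 ≤ q ^ 4 := le_trans hq2 (Nat.le_self_pow (by norm_num) q)
    have h8 : q ^ 8 = q ^ 4 * q ^ 4 := by ring
    have h9 : q ^ 9 = q ^ 8 * q := by ring
    have h10 : q ^ 8 * 2 ≤ q ^ 8 * q := Nat.mul_le_mul_left _ hq2
    have h11 : q ^ 4 * 2 ≤ q ^ 4 * q ^ 4 := Nat.mul_le_mul_left _ h4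
    omega
  refine good_of_bound (N := 12) (c := 1)
    (M := (q ^ 2 - 1) * (q ^ 6 - 1) * (q ^ 8 + q ^ 4 + 1))
    (B := 2 + 6 + 9) hp hq hg ?_ (Nat.coprime_one_right q) ?_ ?_ (by norm_num) (by norm_num)
  · rw [one_mul, h]; ring
  · refine Nat.Coprime.mul_right (Nat.Coprime.mul_right ?_ ?_) ?_
    · exact coprime_pow_sub_one hq0 (by norm_num)
    · exact coprime_pow_sub_one hq0 (by norm_num)
    · have e : q ^ 8 + q ^ 4 + 1 = 1 + q * (q ^ 7 + q ^ 3) := by ring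
      rw [e]
      simp
  · exact mul_lt_pow (mul_lt_pow (sub_one_lt hq2 2) (sub_one_lt hq2 6)) h84

example : Cfsg.Agent.H56.Ord.TwD4Stmt := goodTwD4

end Cfsg.Agent.H23.GoodOrd
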