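import Mathlib
import Cfsg.Agent.H56.OrdDefs
import Cfsg.Agent.H23.GoodBase
import Cfsg.Agent.S1066

/-!
# S2363-TWE6 (helper23, for helper56): the order bounds for `²E₆(q)`
-/

set_option autoImplicit false

namespace Cfsg.Agent.H23.GoodOrd

open Cfsg Cfsg.Agent.H56.Ord

theorem goodTwE6 : Cfsg.Agent.H56.Ord.TwE6Stmt := by
  intro p hp K _ _ _ q hqpp hK
  obtain ⟨f, hf, hKf⟩ := card_eq_pow p K
  obtain ⟨g, hg, hq⟩ := pow_of_isPrimePow hp hqpp 2 (by norm_num) (hK ▸ hKf)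
  have h := Cfsg.Agent.S1066.result (K := K) (q := q) hqpp hK
  have hq2 : 2 ≤ q := two_le_card hp hq hg
  have hq0 : q ≠ 0 := by omega
  refine good_of_bound (N := 36) (c := Nat.gcd 3 (q + 1))
    (M := (q ^ 2 - 1) * (q ^ 5 + 1) * (q ^ 6 - 1) * (q ^ 8 - 1) * (q ^ 9 + 1) * (q ^ 12 - 1))
    (B := 2 + (5 + 1) + 6 + 8 + (9 + 1) + 12) hp hq hg ?_ (coprime_gcd_add q 3) ?_ ?_
    (by norm_num) (by norm_num)
  · rw [h]; ring
  · refine Nat.Coprime.mul_right (Nat.Coprime.mul_right (Nat.Coprime.mul_right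
      (Nat.Coprime.mul_right (Nat.Coprime.mul_right ?_ ?_) ?_) ?_) ?_) ?_
    · exact coprime_pow_sub_one hq0 (by norm_num)
    · exact coprime_pow_add_one q (by norm_num)
    · exact coprime_pow_sub_one hq0 (by norm_num)
    · exact coprime_pow_sub_one hq0 (by norm_num)
    · exact coprime_pow_add_one q (by norm_num)
    · exact coprime_pow_sub_one hq0 (by norm_num)
  · exact mul_lt_pow (mul_lt_pow (mul_lt_pow (mul_lt_pow (mul_lt_pow (sub_one_lt hq2 2)
      (add_one_lt hq2 (by norm_num))) (sub_one_lt hq2 6)) (sub_one_lt hq2 8))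
      (add_one_lt hq2 (by norm_num))) (sub_one_lt hq2 12)

example : Cfsg.Agent.H56.Ord.TwE6Stmt := goodTwE6

end Cfsg.Agent.H23.GoodOrd
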