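import Cfsg.Agent.H23.SdGlue
import Cfsg.Agent.H23.SylowU
import Cfsg.Agent.H23.CanonTab

/-!
# S2156: the table facts of type `B2` (helper23; generated)
-/

set_option autoImplicit false
set_option maxRecDepth 100000

namespace Cfsg.Agent.H23.StbD

open Cfsg.Lie Cfsg.Agent.H23 Cfsg.Agent.H23.Stb

universe u

/-- The packed tables (4 bits per root, offset 8) of the coefficients of the fundamental roots. -/
def sdM_B2 : List ℕ :=
  [2845345654,
   2575923319]

/-- `2` times the inverse of the Cartan matrix. -/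
def sdB_B2 : List (List ℤ) :=
  [[2, 2],
   [1, 2]]

/-- The exponent function of type `B2`. -/
abbrev sdz_B2 : ℕ → ℕ → ℤ := zR chevB2 ctblB2

/-- The signs of type `B2`. -/
abbrev sdeta_B2 : ℕ → ℕ → ℤ := fun i s => etaBit (etaB2.getD i 0) s

/-- The coefficient of the `i`-th fundamental root in the weight of the index `c`. -/
def sdm_B2 (i c : ℕ) : ℤ := zS (sdM_B2.getD i 0) chevB2.nroots c

/-- The symmetry `-w₀` of the diagram. -/
def sdtau_B2 : ℕ → ℕ := fun i => i

theorem sdPack_B2 (F : Type u) [Field F] : PackS chevB2 F sdz_B2 sdeta_B2 rTB2 w0B2 :=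
  ⟨⟨chk_B2.sem F, nconj_B2.semN chk_B2.tblOK F, comm_B2.semC chk_B2.tblOK F, tab_B2, tabC_B2,
    etaNeg_B2, tab2_B2⟩, trin_B2.semV chk_B2.tblOK F, tabT_B2, tabL_B2, tabW_B2⟩

theorem sdCoordEq_B2 : ∀ i < chevB2.rank, ∀ c < chevB2.nroots,
    (2 : ℤ) * zS (sdM_B2.getD i 0) chevB2.nroots c =
      ((List.range chevB2.rank).map
        (fun j => ((sdB_B2.getD i []).getD j 0) * zR chevB2 ctblB2 (chevB2.simple j) c)).sum := by
  decide +kernel

theorem sdCoord_B2_simple : ∀ i < chevB2.rank, ∀ j < chevB2.rank,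
    sdm_B2 i (chevB2.simple j) = if i = j then 1 else 0 := by decide +kernel

theorem sdCoord_B2_neg : ∀ i < chevB2.rank, ∀ j < chevB2.rank,
    sdm_B2 i (chevB2.neg (chevB2.simple j)) = if i = j then -1 else 0 := by decide +kernel

theorem sdCoord_B2_cartan : ∀ i < chevB2.rank, ∀ k < chevB2.rank, sdm_B2 i (chevB2.nroots + k) = 0 := by
  decide +kernel

theorem sdCoord_B2 : Coord chevB2 sdm_B2 where
  adm := fun i hi =>
    coord_adm_of_comb chevB2 ctblB2 (chk_B2.sem ℚ).zadm _ 2 (by norm_num) (sdB_B2.getD i [])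
      (sdCoordEq_B2 i hi)
  simple := sdCoord_B2_simple
  neg := sdCoord_B2_neg
  cartan := sdCoord_B2_cartan

theorem sdT_B2_tau : (∀ i < chevB2.rank, sdtau_B2 i < chevB2.rank) ∧ (∀ i < chevB2.rank, sdtau_B2 (sdtau_B2 i) = i) := by
  decide +kernel

theorem sdT_B2_w0 : ∀ i < chevB2.rank, reflW chevB2 w0B2 (chevB2.neg (chevB2.simple i)) = chevB2.simple (sdtau_B2 i) := by
  decide +kernel

set_option synthInstance.maxSize 4096 in
set_option synthInstance.maxHeartbeats 400000 in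
theorem sdT_B2_ct1 : ∀ i < chevB2.rank, ∀ j < chevB2.rank, i ≠ j →
    chevB2.commTerms (chevB2.neg (chevB2.simple i)) (chevB2.simple j) = [] := by
  decide +kernel

set_option synthInstance.maxSize 4096 in
set_option synthInstance.maxHeartbeats 400000 in
theorem sdT_B2_ct2 : ∀ i < chevB2.rank, ∀ j < chevB2.rank, i ≠ j → sdz_B2 (chevB2.simple j) (chevB2.simple i) = 0 →
    chevB2.commTerms (chevB2.simple i) (chevB2.simple j) = [] := by
  decide +kernel

theorem sdT_B2_refl1 : ∀ i < chevB2.rank, ∀ j < chevB2.rank, i ≠ j → sdz_B2 (chevB2.simple j) (chevB2.simple i) ≠ 0 →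
    chevB2.reflectRoot i (chevB2.simple j) ≠ chevB2.simple j := by
  decide +kernel

theorem sdT_B2_refl2 : ∀ i < chevB2.rank, chevB2.reflectRoot i (chevB2.simple i) = chevB2.neg (chevB2.simple i) := by
  decide +kernel

theorem sdT_B2_cartan : ∀ i < chevB2.rank, ∀ j < chevB2.rank,
    chevB2.cartan i (chevB2.simple j) = sdz_B2 (chevB2.simple i) (chevB2.simple j) := by
  decide +kernel

theorem sdT_B2_hA : ∀ i < chevB2.rank, ∀ j < chevB2.rank, i ≠ j → sdz_B2 (chevB2.simple j) (chevB2.simple i) ≠ 0 →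
    sdz_B2 (chevB2.simple j) (chevB2.simple i) =
      if chevB2.isLong (chevB2.simple i) && !chevB2.isLong (chevB2.simple j) then -(((2 : ℕ)) : ℤ) else -1 := by
  decide +kernel

theorem sdT_B2_conn : connOK chevB2 sdz_B2 [0, 1] [] = true := by decide +kernel

theorem sdT_B2_type : typeOK chevB2 sdz_B2 := by unfold typeOK; decide +kernel

theorem sdT_B2_base : chevB2.isLong (chevB2.simple 1) = true ∧ chevB2.isLong (chevB2.simple 0) = false ∧
    sdz_B2 (chevB2.simple 0) (chevB2.simple 1) ≠ 0 ∧ sdz_B2 (chevB2.simple 1) (chevB2.simple 0) ≠ 0 := by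
  decide +kernel

theorem sdT_B2_edge : sdz_B2 (chevB2.simple 1) (chevB2.simple 0) = -1 := by decide +kernel

theorem sdT_B2_chain : ∀ r < chevB2.nroots, chainRowOK chevB2 r = true := by decide +kernel

theorem sdTab_B2 : SdTab chevB2 sdz_B2 w0B2 sdtau_B2 2 1 0 [] where
  tau_lt := sdT_B2_tau.1
  tau_tau := sdT_B2_tau.2
  w0 := sdT_B2_w0
  ct1 := sdT_B2_ct1
  ct2 := sdT_B2_ct2
  refl1 := sdT_B2_refl1
  refl2 := sdT_B2_refl2
  cartan := sdT_B2_cartan
  hc := Or.inl rfl
  hA := sdT_B2_hA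
  bL_lt := by decide
  bS_lt := by decide
  conn := sdT_B2_conn
  base := Or.inl sdT_B2_base
  edge := ⟨0, by decide, 1, by decide, by decide, sdT_B2_edge⟩
  pitype := Or.inr sdT_B2_type
  chain := sdT_B2_chain

/-- **S2156 for type `B2`.** -/
theorem sd_B2 : StType.{u} chevB2 :=
  stType_of_tab chevB2 sdz_B2 sdeta_B2 rTB2 w0B2 sdtau_B2 sdm_B2 2 1 0 []
    sdPack_B2 (fun F _ _ p _ _ => exists_sylow_posUnipotent p chevB2 (by simp)) sdTab_B2 sdCoord_B2

end Cfsg.Agent.H23.StbD
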