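import Cfsg.Agent.H23.SdGlue
import Cfsg.Agent.H23.SylowU
import Cfsg.Agent.H23.CanonTab

/-!
# S2156: the table facts of type `G2` (helper23; generated)
-/

set_option autoImplicit false
set_option maxRecDepth 100000

namespace Cfsg.Agent.H23.StbD

open Cfsg.Lie Cfsg.Agent.H23 Cfsg.Agent.H23.Stb

universe u

/-- The packed tables (4 bits per root, offset 8) of the coefficients of the fundamental roots. -/
def sdM_G2 : List ℕ :=
  [206337082881621,
   186476901463926]

/-- `1` times the inverse of the Cartan matrix. -/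
def sdB_G2 : List (List ℤ) :=
  [[2, 3],
   [1, 2]]

/-- The exponent function of type `G2`. -/
abbrev sdz_G2 : ℕ → ℕ → ℤ := zR chevG2 ctblG2

/-- The signs of type `G2`. -/
abbrev sdeta_G2 : ℕ → ℕ → ℤ := fun i s => etaBit (etaG2.getD i 0) s

/-- The coefficient of the `i`-th fundamental root in the weight of the index `c`. -/
def sdm_G2 (i c : ℕ) : ℤ := zS (sdM_G2.getD i 0) chevG2.nroots c

/-- The symmetry `-w₀` of the diagram. -/
def sdtau_G2 : ℕ → ℕ := fun i => i

theorem sdPack_G2 (F : Type u) [Field F] : PackS chevG2 F sdz_G2 sdeta_G2 rTG2 w0G2 :=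
  ⟨⟨chk_G2.sem F, nconj_G2.semN chk_G2.tblOK F, comm_G2.semC chk_G2.tblOK F, tab_G2, tabC_G2,
    etaNeg_G2, tab2_G2⟩, trin_G2.semV chk_G2.tblOK F, tabT_G2, tabL_G2, tabW_G2⟩

theorem sdCoordEq_G2 : ∀ i < chevG2.rank, ∀ c < chevG2.nroots,
    (1 : ℤ) * zS (sdM_G2.getD i 0) chevG2.nroots c =
      ((List.range chevG2.rank).map
        (fun j => ((sdB_G2.getD i []).getD j 0) * zR chevG2 ctblG2 (chevG2.simple j) c)).sum := by
  decide +kernel

theorem sdCoord_G2_simple : ∀ i < chevG2.rank, ∀ j < chevG2.rank,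
    sdm_G2 i (chevG2.simple j) = if i = j then 1 else 0 := by decide +kernel

theorem sdCoord_G2_neg : ∀ i < chevG2.rank, ∀ j < chevG2.rank,
    sdm_G2 i (chevG2.neg (chevG2.simple j)) = if i = j then -1 else 0 := by decide +kernel

theorem sdCoord_G2_cartan : ∀ i < chevG2.rank, ∀ k < chevG2.rank, sdm_G2 i (chevG2.nroots + k) = 0 := by
  decide +kernel

theorem sdCoord_G2 : Coord chevG2 sdm_G2 where
  adm := fun i hi =>
    coord_adm_of_comb chevG2 ctblG2 (chk_G2.sem ℚ).zadm _ 1 (by norm_num) (sdB_G2.getD i [])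
      (sdCoordEq_G2 i hi)
  simple := sdCoord_G2_simple
  neg := sdCoord_G2_neg
  cartan := sdCoord_G2_cartan

theorem sdT_G2_tau : (∀ i < chevG2.rank, sdtau_G2 i < chevG2.rank) ∧ (∀ i < chevG2.rank, sdtau_G2 (sdtau_G2 i) = i) := by
  decide +kernel

theorem sdT_G2_w0 : ∀ i < chevG2.rank, reflW chevG2 w0G2 (chevG2.neg (chevG2.simple i)) = chevG2.simple (sdtau_G2 i) := by
  decide +kernel

set_option synthInstance.maxSize 4096 in
set_option synthInstance.maxHeartbeats 400000 in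
theorem sdT_G2_ct1 : ∀ i < chevG2.rank, ∀ j < chevG2.rank, i ≠ j →
    chevG2.commTerms (chevG2.neg (chevG2.simple i)) (chevG2.simple j) = [] := by
  decide +kernel

set_option synthInstance.maxSize 4096 in
set_option synthInstance.maxHeartbeats 400000 in
theorem sdT_G2_ct2 : ∀ i < chevG2.rank, ∀ j < chevG2.rank, i ≠ j → sdz_G2 (chevG2.simple j) (chevG2.simple i) = 0 →
    chevG2.commTerms (chevG2.simple i) (chevG2.simple j) = [] := by
  decide +kernel

theorem sdT_G2_refl1 : ∀ i < chevG2.rank, ∀ j < chevG2.rank, i ≠ j → sdz_G2 (chevG2.simple j) (chevG2.simple i) ≠ 0 →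
    chevG2.reflectRoot i (chevG2.simple j) ≠ chevG2.simple j := by
  decide +kernel

theorem sdT_G2_refl2 : ∀ i < chevG2.rank, chevG2.reflectRoot i (chevG2.simple i) = chevG2.neg (chevG2.simple i) := by
  decide +kernel

theorem sdT_G2_cartan : ∀ i < chevG2.rank, ∀ j < chevG2.rank,
    chevG2.cartan i (chevG2.simple j) = sdz_G2 (chevG2.simple i) (chevG2.simple j) := by
  decide +kernel

theorem sdT_G2_hA : ∀ i < chevG2.rank, ∀ j < chevG2.rank, i ≠ j → sdz_G2 (chevG2.simple j) (chevG2.simple i) ≠ 0 →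
    sdz_G2 (chevG2.simple j) (chevG2.simple i) =
      if chevG2.isLong (chevG2.simple i) && !chevG2.isLong (chevG2.simple j) then -(((3 : ℕ)) : ℤ) else -1 := by
  decide +kernel

theorem sdT_G2_conn : connOK chevG2 sdz_G2 [0, 1] [] = true := by decide +kernel

theorem sdT_G2_type : typeOK chevG2 sdz_G2 := by unfold typeOK; decide +kernel

theorem sdT_G2_base : chevG2.isLong (chevG2.simple 1) = true ∧ chevG2.isLong (chevG2.simple 0) = false ∧
    sdz_G2 (chevG2.simple 0) (chevG2.simple 1) ≠ 0 ∧ sdz_G2 (chevG2.simple 1) (chevG2.simple 0) ≠ 0 := by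
  decide +kernel

theorem sdT_G2_edge : sdz_G2 (chevG2.simple 1) (chevG2.simple 0) = -1 := by decide +kernel

theorem sdT_G2_chain : ∀ r < chevG2.nroots, chainRowOK chevG2 r = true := by decide +kernel

theorem sdTab_G2 : SdTab chevG2 sdz_G2 w0G2 sdtau_G2 3 1 0 [] where
  tau_lt := sdT_G2_tau.1
  tau_tau := sdT_G2_tau.2
  w0 := sdT_G2_w0
  ct1 := sdT_G2_ct1
  ct2 := sdT_G2_ct2
  refl1 := sdT_G2_refl1
  refl2 := sdT_G2_refl2
  cartan := sdT_G2_cartan
  hc := Or.inr rfl
  hA := sdT_G2_hA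
  bL_lt := by decide
  bS_lt := by decide
  conn := sdT_G2_conn
  base := Or.inl sdT_G2_base
  edge := ⟨0, by decide, 1, by decide, by decide, sdT_G2_edge⟩
  pitype := Or.inr sdT_G2_type
  chain := sdT_G2_chain

/-- **S2156 for type `G2`.** -/
theorem sd_G2 : StType.{u} chevG2 :=
  stType_of_tab chevG2 sdz_G2 sdeta_G2 rTG2 w0G2 sdtau_G2 sdm_G2 3 1 0 []
    sdPack_G2 (fun F _ _ p _ _ => exists_sylow_posUnipotent p chevG2 (by simp)) sdTab_G2 sdCoord_G2

end Cfsg.Agent.H23.StbD
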