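import Cfsg.Agent.H78.SdGlue

/-!
# S2156: the generic glue (helper23)

The table facts on a datum needed for the decomposition of automorphisms, with decidable certificates, and the
reduction of `StType D` to the team-project pieces.
-/

set_option autoImplicit false

namespace Cfsg.Agent.H23.StbD

open Cfsg.Lie Cfsg.Agent.H23 Cfsg.Agent.H23.Stb

universe u

/-! ## Injections of a graph by exhaustive search -/

/-- May the partial map `l` (the images of `0, …, l.length - 1`) be extended by `l.length ↦ v`? -/
def okExt (A : ℕ → ℕ → Bool) (l : List ℕ) (v : ℕ) : Bool :=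
  !(l.contains v) && (List.range l.length).all (fun j => A (l.getD j 0) v == A j l.length)

/-- The extensions of a partial map by one more value. -/
def extOne (A : ℕ → ℕ → Bool) (n : ℕ) (l : List ℕ) : List (List ℕ) :=
  (List.range n).filterMap (fun v => if okExt A l v then some (l ++ [v]) else none)

/-- The injective partial maps on `0, …, k - 1` preserving the relation `A`. -/
def solsG (A : ℕ → ℕ → Bool) (n : ℕ) : ℕ → List (List ℕ)
  | 0 => [[]]
  | k + 1 => (solsG A n k).flatMap (extOne A n)

theorem mem_solsG (A : ℕ → ℕ → Bool) (n : ℕ) (π : ℕ → ℕ) (h1 : ∀ i < n, π i < n)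
    (h2 : ∀ i < n, ∀ j < n, π i = π j → i = j)
    (h3 : ∀ i < n, ∀ j < n, i ≠ j → A (π i) (π j) = A i j) :
    ∀ k ≤ n, (List.range k).map π ∈ solsG A n k := by
  intro k
  induction k with
  | zero => intro _; simp [solsG]
  | succ k ih =>
    intro hk
    have hk' : k < n := hk
    have ih' := ih (Nat.le_of_lt hk')
    rw [solsG, List.mem_flatMap]
    refine ⟨_, ih', ?_⟩
    rw [extOne, List.mem_filterMap]
    refine ⟨π k, List.mem_range.mpr (h1 k hk'), ?_⟩
    have hok : okExt A ((List.range k).map π) (π k) = true := by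
      rw [okExt, Bool.and_eq_true]
      constructor
      · rw [Bool.not_eq_true']
        by_contra hc
        rw [Bool.not_eq_false] at hc
        have hc' : π k ∈ (List.range k).map π := by simpa using hc
        obtain ⟨j, hj, e⟩ := List.mem_map.mp hc'
        have hj' : j < k := List.mem_range.mp hj
        have := h2 j (lt_trans hj' hk') k hk' e
        omega
      · rw [List.all_eq_true]
        intro j hj
        rw [List.length_map, List.length_range] at hj
        have hj' : j < k := List.mem_range.mp hj
        have e : ((List.range k).map π).getD j 0 = π j := by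
          rw [List.getD_eq_getElem?_getD, List.getElem?_map, List.getElem?_range hj']
          rfl
        rw [e, List.length_map, List.length_range, h3 j (lt_trans hj' hk') k hk' (by omega)]
        exact beq_self_eq_true _
    rw [if_pos hok, List.range_succ, List.map_append]
    rfl

/-! ## Certificates -/

/-- The adjacency relation of the diagram read off the exponent function. -/
def adjB (D : ChevalleyDatum) (z : ℕ → ℕ → ℤ) (i j : ℕ) : Bool := decide (z (D.simple j) (D.simple i) ≠ 0)

/-- Every adjacency-preserving injection of the nodes preserves all lengths or reverses all lengths: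
the check on the list of all such injections. -/
def typeOK (D : ChevalleyDatum) (z : ℕ → ℕ → ℤ) : Prop :=
  ∀ l ∈ solsG (adjB D z) D.rank D.rank,
    (∀ i < D.rank, D.isLong (D.simple (l.getD i 0)) = D.isLong (D.simple i)) ∨
      (∀ i < D.rank, D.isLong (D.simple (l.getD i 0)) = !D.isLong (D.simple i))

theorem pitype_of_typeOK (D : ChevalleyDatum) (z : ℕ → ℕ → ℤ) (h : typeOK D z) :
    ∀ π : ℕ → ℕ, (∀ i < D.rank, π i < D.rank) → (∀ i < D.rank, ∀ j < D.rank, π i = π j → i = j) →
      (∀ i < D.rank, ∀ j < D.rank, i ≠ j →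
        (z (D.simple (π j)) (D.simple (π i)) ≠ 0 ↔ z (D.simple j) (D.simple i) ≠ 0)) →
      ((∀ i < D.rank, D.isLong (D.simple (π i)) = D.isLong (D.simple i)) ∨
        (∀ i < D.rank, D.isLong (D.simple (π i)) = !D.isLong (D.simple i))) := by
  intro π h1 h2 h3
  have hm := mem_solsG (adjB D z) D.rank π h1 h2 (fun i hi j hj hij => by
    unfold adjB
    exact decide_eq_decide.mpr (h3 i hi j hj hij)) D.rank (le_refl _)
  have e : ∀ i < D.rank, ((List.range D.rank).map π).getD i 0 = π i := by
    intro i hi
    rw [List.getD_eq_getElem?_getD, List.getElem?_map, List.getElem?_range hi]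
    rfl
  rcases h _ hm with h4 | h4
  · left; intro i hi; rw [← e i hi]; exact h4 i hi
  · right; intro i hi; rw [← e i hi]; exact h4 i hi

theorem pitype_of_short (D : ChevalleyDatum) (z : ℕ → ℕ → ℤ)
    (h : ∀ i < D.rank, D.isLong (D.simple i) = false) :
    ∀ π : ℕ → ℕ, (∀ i < D.rank, π i < D.rank) → (∀ i < D.rank, ∀ j < D.rank, π i = π j → i = j) →
      (∀ i < D.rank, ∀ j < D.rank, i ≠ j →
        (z (D.simple (π j)) (D.simple (π i)) ≠ 0 ↔ z (D.simple j) (D.simple i) ≠ 0)) →
      ((∀ i < D.rank, D.isLong (D.simple (π i)) = D.isLong (D.simple i)) ∨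
        (∀ i < D.rank, D.isLong (D.simple (π i)) = !D.isLong (D.simple i))) := by
  intro π h1 _ _
  left; intro i hi; rw [h i hi, h (π i) (h1 i hi)]

/-- Connectivity certificate: every edge `(i, j)` of the list joins a node already reached to a node of the same
length, and in the end all nodes are reached. -/
def connOK (D : ChevalleyDatum) (z : ℕ → ℕ → ℤ) : List ℕ → List (ℕ × ℕ) → Bool
  | known, [] => (List.range D.rank).all (fun i => known.contains i)
  | known, (i, j) :: es =>
    known.contains i && decide (i < D.rank) && decide (j < D.rank) && decide (i ≠ j) &&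
      decide (z (D.simple j) (D.simple i) ≠ 0) && (D.isLong (D.simple i) == D.isLong (D.simple j)) &&
      connOK D z (j :: known) es

theorem conn_of_connOK (D : ChevalleyDatum) (z : ℕ → ℕ → ℤ) (P : ℕ → Prop)
    (hstep : ∀ i < D.rank, ∀ j < D.rank, i ≠ j → z (D.simple j) (D.simple i) ≠ 0 →
      D.isLong (D.simple i) = D.isLong (D.simple j) → P i → P j) :
    ∀ (es : List (ℕ × ℕ)) (known : List ℕ), connOK D z known es = true → (∀ k ∈ known, P k) →
      ∀ i < D.rank, P i := by
  intro es
  induction es with
  | nil =>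
    intro known h hk i hi
    rw [connOK, List.all_eq_true] at h
    have := h i (List.mem_range.mpr hi)
    exact hk i (by simpa using this)
  | cons e es ih =>
    intro known h hk
    obtain ⟨i, j⟩ := e
    rw [connOK] at h
    simp only [Bool.and_eq_true, decide_eq_true_eq, beq_iff_eq] at h
    obtain ⟨⟨⟨⟨⟨⟨h1, h2⟩, h3⟩, h4⟩, h5⟩, h6⟩, h7⟩ := h
    apply ih (j :: known) h7
    intro k hk'
    rcases List.mem_cons.mp hk' with rfl | hk''
    · exact hstep i h2 k h3 h4 h5 h6 (hk i (by simpa using h1))
    · exact hk k hk''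

/-- The check on the row `r` of the chain table: the entries are for roots `s ≠ ±r` and start with the index of a
root. -/
def chainRowOK (D : ChevalleyDatum) (r : ℕ) : Bool :=
  (D.chain.getD r #[]).toList.all fun e =>
    decide (e.1 ≠ r) && decide (e.1 ≠ D.neg r) &&
      (match e.2.toList with
        | [] => true
        | x :: _ => decide (x.1 < D.nroots))

theorem chain_of_chainRowOK (D : ChevalleyDatum) (h : ∀ r < D.nroots, chainRowOK D r = true) :
    ∀ r < D.nroots, ∀ s < D.nroots, ∀ k, D.chainRoot r s 1 = some k →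
      k < D.nroots ∧ s ≠ r ∧ s ≠ D.neg r := by
  intro r hr s _ k hk
  have h1 := h r hr
  rw [chainRowOK, List.all_eq_true] at h1
  unfold ChevalleyDatum.chainRoot ChevalleyDatum.chainEntry at hk
  cases hf : (D.chain.getD r #[]).toList.find? (fun e => e.1 = s) with
  | none => rw [hf] at hk; simp at hk
  | some e =>
    rw [hf] at hk
    have hk' : Option.map Prod.fst (e.2.toList[1 - 1]?) = some k := hk
    have hmem := List.mem_of_find?_eq_some hf
    have hp := List.find?_some hf
    have hes : e.1 = s := by simpa using hp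
    have h2 := h1 e hmem
    simp only [Bool.and_eq_true, decide_eq_true_eq] at h2
    obtain ⟨⟨h3, h4⟩, h5⟩ := h2
    refine ⟨?_, hes ▸ h3, hes ▸ h4⟩
    cases hl : e.2.toList with
    | nil => rw [hl] at hk'; simp at hk'
    | cons x rest =>
      rw [hl] at hk' h5
      simp only [Nat.sub_self, List.getElem?_cons_zero, Option.map_some, Option.some.injEq] at hk'
      rw [← hk']
      simpa using h5

/-- An integer function whose multiple by `d ≠ 0` is an integer combination of the exponent functions of the
fundamental coroots is admissible. -/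
theorem coord_adm_of_comb (D : ChevalleyDatum) (ctbl : List ℕ) (hz : ∀ r, Adm D (zR D ctbl r)) (M : ℕ) (d : ℤ)
    (hd : d ≠ 0) (B : List ℤ)
    (h : ∀ c < D.nroots, d * zS M D.nroots c =
      ((List.range D.rank).map (fun j => B.getD j 0 * zR D ctbl (D.simple j) c)).sum) :
    Adm D (zS M D.nroots) := by
  have h' : ∀ c, d * zS M D.nroots c =
      ((List.range D.rank).map (fun j => B.getD j 0 * zR D ctbl (D.simple j) c)).sum := by
    intro c
    by_cases hc : c < D.nroots
    · exact h c hc
    · have hc' : D.nroots ≤ c := Nat.le_of_not_lt hc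
      rw [zS_ge _ _ _ hc']
      have e : ∀ j, zR D ctbl (D.simple j) c = 0 := fun j => zRl_ge _ _ _ _ hc'
      simp [e]
  have key : ∀ (l : List ℕ) (x1 c s : ℕ) (k : ℤ),
      (∀ j, zR D ctbl (D.simple j) x1 = zR D ctbl (D.simple j) c + k * zR D ctbl (D.simple j) s) →
      (l.map (fun j => B.getD j 0 * zR D ctbl (D.simple j) x1)).sum =
        (l.map (fun j => B.getD j 0 * zR D ctbl (D.simple j) c)).sum +
          k * (l.map (fun j => B.getD j 0 * zR D ctbl (D.simple j) s)).sum := by
    intro l x1 c s k hk
    induction l with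
    | nil => simp
    | cons a l ih =>
      simp only [List.map_cons, List.sum_cons]
      rw [ih, hk a]
      ring
  intro s hs c x hx
  have h1 := key (List.range D.rank) x.1 c s (x.2.2 : ℤ) (fun j => hz (D.simple j) s hs c x hx)
  rw [← h' x.1, ← h' c, ← h' s] at h1
  have h2 : d * zS M D.nroots x.1 = d * (zS M D.nroots c + (x.2.2 : ℤ) * zS M D.nroots s) := by
    rw [h1]; ring
  exact mul_left_cancel₀ hd h2

/-- The decidable table facts on a datum used for the decomposition of its automorphisms. -/
structure SdTab (D : ChevalleyDatum) (z : ℕ → ℕ → ℤ) (w0 : List ℕ) (τ : ℕ → ℕ) (c bL bS : ℕ)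
    (es : List (ℕ × ℕ)) : Prop where
  tau_lt : ∀ i < D.rank, τ i < D.rank
  tau_tau : ∀ i < D.rank, τ (τ i) = i
  w0 : ∀ i < D.rank, reflW D w0 (D.neg (D.simple i)) = D.simple (τ i)
  ct1 : ∀ i < D.rank, ∀ j < D.rank, i ≠ j → D.commTerms (D.neg (D.simple i)) (D.simple j) = []
  ct2 : ∀ i < D.rank, ∀ j < D.rank, i ≠ j → z (D.simple j) (D.simple i) = 0 →
    D.commTerms (D.simple i) (D.simple j) = []
  refl1 : ∀ i < D.rank, ∀ j < D.rank, i ≠ j → z (D.simple j) (D.simple i) ≠ 0 →
    D.reflectRoot i (D.simple j) ≠ D.simple j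
  refl2 : ∀ i < D.rank, D.reflectRoot i (D.simple i) = D.neg (D.simple i)
  cartan : ∀ i < D.rank, ∀ j < D.rank, D.cartan i (D.simple j) = z (D.simple i) (D.simple j)
  hc : c = 2 ∨ c = 3
  hA : ∀ i < D.rank, ∀ j < D.rank, i ≠ j → z (D.simple j) (D.simple i) ≠ 0 →
    z (D.simple j) (D.simple i) = if D.isLong (D.simple i) && !D.isLong (D.simple j) then -(c : ℤ) else -1
  bL_lt : bL < D.rank
  bS_lt : bS < D.rank
  conn : connOK D z [bS, bL] es = true
  base : (D.isLong (D.simple bL) = true ∧ D.isLong (D.simple bS) = false ∧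
      z (D.simple bS) (D.simple bL) ≠ 0 ∧ z (D.simple bL) (D.simple bS) ≠ 0) ∨
    ((∀ i < D.rank, D.isLong (D.simple i) = false) ∧ bL = bS)
  edge : ∃ i < D.rank, ∃ j < D.rank, i ≠ j ∧ z (D.simple j) (D.simple i) = -1
  pitype : (∀ i < D.rank, D.isLong (D.simple i) = false) ∨ typeOK D z
  chain : ∀ r < D.nroots, chainRowOK D r = true

/-- **S2156 for one datum**, from the table facts (through helper78's `stType_of_tables`). -/
theorem stType_of_tab (D : ChevalleyDatum) (z η : ℕ → ℕ → ℤ) (rT w0 : List ℕ) (τ : ℕ → ℕ) (m : ℕ → ℕ → ℤ)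
    (c bL bS : ℕ) (es : List (ℕ × ℕ))
    (hpack : ∀ (F : Type u) [Field F], PackS D F z η rT w0)
    (hsyl : ∀ (F : Type u) [Field F] [Fintype F] (p : ℕ) [Fact p.Prime] [CharP F p],
      ∃ P : Sylow p ↥(D.group F), (P : Subgroup ↥(D.group F)) = (D.posUnipotent F).subgroupOf (D.group F))
    (hT : SdTab D z w0 τ c bL bS es) (hm : Coord D m) : StType.{u} D := by
  refine Cfsg.Agent.H78.Sd.stType_of_tables D z η rT w0 τ m c bL bS hpack hsyl hT.tau_lt hT.tau_tau hT.w0
    hT.ct1 hT.ct2 hT.refl1 hT.refl2 hm hT.cartan hT.hc hT.hA hT.bL_lt hT.bS_lt ?_ hT.base hT.edge ?_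
    (chain_of_chainRowOK D hT.chain)
  · intro P hS hL hstep
    refine conn_of_connOK D z P hstep es [bS, bL] hT.conn ?_
    intro k hk
    rcases List.mem_cons.mp hk with rfl | hk
    · exact hS
    · rcases List.mem_cons.mp hk with rfl | hk
      · exact hL
      · simp at hk
  · rcases hT.pitype with h | h
    · exact pitype_of_short D z h
    · exact pitype_of_typeOK D z h

end Cfsg.Agent.H23.StbD
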