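import Cfsg.Agent.H78.StbGrDefs
import Cfsg.Prelude.Def_ChevAutomorphisms

/-!
# S2156 (every automorphism of a Chevalley group is inner ∘ diagonal ∘ graph ∘ field): statements of the
team-project pieces (helper23)

No graph automorphism has to be constructed: an automorphism in normal form which permutes the fundamental root
subgroups is itself diagonal ∘ graph ∘ field.
-/

set_option autoImplicit false

namespace Cfsg.Agent.H23.StbD

open Cfsg.Lie Cfsg.Agent.H23 Cfsg.Agent.H23.Stb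

universe u

/-- **SD-ROOTMAPG**: an automorphism mapping a root subgroup onto another one does so through an additive
bijection of the field. -/
def StRootMapG : Prop :=
  ∀ (D : ChevalleyDatum) (F : Type u) [Field F] (z η : ℕ → ℕ → ℤ) (hP : PackB D F z η)
    (θ : ↥(D.group F) ≃* ↥(D.group F)) (r r' : ℕ), r < D.nroots → r' < D.nroots → RootTo hP.sem θ r r' →
    ∃ φ : F ≃+ F, ∀ t : F, θ (xG hP.sem r t) = xG hP.sem r' (φ t)

/-- **SD-PSIG**: `StPsi` for an automorphism mapping `X_{±α_i}` onto `X_{±α_j}`. -/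
def StPsiG : Prop :=
  ∀ (D : ChevalleyDatum) (F : Type u) [Field F] (z η : ℕ → ℕ → ℤ) (rT w0 : List ℕ)
    (hC : PackS D F z η rT w0) (θ : ↥(D.group F) ≃* ↥(D.group F)) (i j : ℕ), i < D.rank → j < D.rank →
    ∀ φ ψ : F ≃+ F,
    (∀ t : F, θ (xG hC.hP.sem (D.simple i) t) = xG hC.hP.sem (D.simple j) (φ t)) →
    (∀ t : F, θ (xG hC.hP.sem (D.neg (D.simple i)) t) = xG hC.hP.sem (D.neg (D.simple j)) (ψ t)) →
    φ 1 = 1 →
    (∀ t : F, ψ t = φ t) ∧ (∀ a : F, a ≠ 0 → φ a⁻¹ = (φ a)⁻¹) ∧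
      (∀ a : F, a ≠ 0 → θ (hG hC.hP.sem (D.simple i) a) = hG hC.hP.sem (D.simple j) (φ a))

/-- **SD-EDGE**: the relation between the maps on two fundamental root subgroups. -/
def StEdge : Prop :=
  ∀ (D : ChevalleyDatum) (F : Type u) [Field F] (z η : ℕ → ℕ → ℤ) (hP : PackB D F z η)
    (θ : ↥(D.group F) ≃* ↥(D.group F)) (i j i' j' : ℕ), i < D.rank → j < D.rank → i' < D.rank →
    j' < D.rank → ∀ φi φj : F ≃+ F,
    (∀ t : F, θ (xG hP.sem (D.simple i) t) = xG hP.sem (D.simple i') (φi t)) →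
    (∀ a : F, a ≠ 0 → θ (hG hP.sem (D.simple j) a) = hG hP.sem (D.simple j') (φj a)) →
    ∀ a : F, a ≠ 0 → ∀ u : F,
      φi (a ^ z (D.simple j) (D.simple i) * u) = (φj a) ^ z (D.simple j') (D.simple i') * φi u

/-- **SD-ADJ**: the root subgroups of two fundamental roots commute exactly when the Cartan integer vanishes. -/
def StAdj : Prop :=
  ∀ (D : ChevalleyDatum) (F : Type u) [Field F] (z η : ℕ → ℕ → ℤ) (rT w0 : List ℕ)
    (hC : PackS D F z η rT w0),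
    (∀ i < D.rank, ∀ j < D.rank, i ≠ j → D.commTerms (D.neg (D.simple i)) (D.simple j) = []) →
    (∀ i < D.rank, ∀ j < D.rank, i ≠ j → z (D.simple j) (D.simple i) = 0 →
      D.commTerms (D.simple i) (D.simple j) = []) →
    (∀ i < D.rank, ∀ j < D.rank, i ≠ j → z (D.simple j) (D.simple i) ≠ 0 →
      D.reflectRoot i (D.simple j) ≠ D.simple j) →
    (∀ i < D.rank, D.reflectRoot i (D.simple i) = D.neg (D.simple i)) →
    (∀ i < D.rank, ∀ j < D.rank, i ≠ j → ∀ t u : F,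
      xU hC.hP.sem (D.simple j) u * xU hC.hP.sem (D.neg (D.simple i)) t =
        xU hC.hP.sem (D.neg (D.simple i)) t * xU hC.hP.sem (D.simple j) u) ∧
    (∀ i < D.rank, ∀ j < D.rank, i ≠ j →
      ((∀ t u : F, xU hC.hP.sem (D.simple i) t * xU hC.hP.sem (D.simple j) u =
        xU hC.hP.sem (D.simple j) u * xU hC.hP.sem (D.simple i) t) ↔
        ¬ (z (D.simple j) (D.simple i) ≠ 0)))

/-- The normal form of an automorphism: it maps `x_{±α_i}(t)` to `x_{±α_{π i}}(φ_i t)`, with `φ_i 1 = 1`,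
`φ_i` compatible with inversion, and the relations between the `φ_i` coming from the action of `H`. -/
def NormalForm {D : ChevalleyDatum} {F : Type u} [Field F] {z : ℕ → ℕ → ℤ} (hS : Sem D F z)
    (θ : ↥(D.group F) ≃* ↥(D.group F)) (π : ℕ → ℕ) (φ : ℕ → F ≃+ F) : Prop :=
  (∀ i < D.rank, ∀ t : F, θ (xG hS (D.simple i) t) = xG hS (D.simple (π i)) (φ i t)) ∧
  (∀ i < D.rank, ∀ t : F, θ (xG hS (D.neg (D.simple i)) t) = xG hS (D.neg (D.simple (π i))) (φ i t)) ∧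
  (∀ i < D.rank, φ i 1 = 1) ∧ (∀ i < D.rank, ∀ a : F, a ≠ 0 → φ i a⁻¹ = (φ i a)⁻¹) ∧
  (∀ i < D.rank, ∀ j < D.rank, ∀ a : F, a ≠ 0 → ∀ u : F,
    φ i (a ^ z (D.simple j) (D.simple i) * u) = (φ j a) ^ z (D.simple (π j)) (D.simple (π i)) * φ i u)

/-- **SD-NF**: every automorphism is, up to an inner automorphism and conjugation by an element of `Ĥ`, in normal
form with respect to an adjacency-preserving injection `π` of the nodes. -/
def StNF : Prop :=
  ∀ (D : ChevalleyDatum) (F : Type u) [Field F] [Finite F] (p : ℕ) [Fact p.Prime] (z η : ℕ → ℕ → ℤ)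
    (rT w0 : List ℕ) (hC : PackS D F z η rT w0) (adj : ℕ → ℕ → Prop) (τ : ℕ → ℕ) (m : ℕ → ℕ → ℤ),
    (∃ P : Sylow p ↥(D.group F),
      (P : Subgroup ↥(D.group F)) = (D.posUnipotent F).subgroupOf (D.group F)) →
    (∀ i < D.rank, τ i < D.rank) → (∀ i < D.rank, τ (τ i) = i) →
    (∀ i < D.rank, reflW D w0 (D.neg (D.simple i)) = D.simple (τ i)) →
    (∀ i < D.rank, ∀ j < D.rank, i ≠ j → ∀ t u : F,
      xU hC.hP.sem (D.simple j) u * xU hC.hP.sem (D.neg (D.simple i)) t =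
        xU hC.hP.sem (D.neg (D.simple i)) t * xU hC.hP.sem (D.simple j) u) →
    (∀ i < D.rank, ∀ j < D.rank, i ≠ j →
      ((∀ t u : F, xU hC.hP.sem (D.simple i) t * xU hC.hP.sem (D.simple j) u =
        xU hC.hP.sem (D.simple j) u * xU hC.hP.sem (D.simple i) t) ↔ ¬ adj i j)) →
    Coord D m →
    ∀ θ : ↥(D.group F) ≃* ↥(D.group F), ∃ (x : ↥(D.group F)) (δ : ↥(D.group F) ≃* ↥(D.group F))
      (π : ℕ → ℕ) (φ : ℕ → F ≃+ F),
      (∃ k ∈ torusGroup D F, ∀ y : ↥(D.group F),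
        ((δ y : ↥(D.group F)) : GL D.Idx F) = k * (y : GL D.Idx F) * k⁻¹) ∧
      (∀ i < D.rank, π i < D.rank) ∧ (∀ i < D.rank, ∀ j < D.rank, π i = π j → i = j) ∧
      (∀ i < D.rank, ∀ j < D.rank, i ≠ j → (adj (π i) (π j) ↔ adj i j)) ∧
      NormalForm hC.hP.sem ((conjL x θ).trans δ) π φ

/-- **SD-ALG** (pure field theory): additive bijections `φ_i` of a finite field, normalised and compatible with
inversion, related along the edges of a Dynkin diagram (`A j i` the Cartan integer `⟨α_i, α_j^∨⟩`, `long` the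
long nodes, `c` the bond number) twisted by a symmetry `π` which preserves or exchanges the root lengths, all
come from one field automorphism `σ`: `φ_i = σ`, except `φ_i = σ^p` when `i` is short and `π i` long. -/
def StAlg : Prop :=
  ∀ (F : Type u) [Field F] [Finite F] (l : ℕ) (A : ℕ → ℕ → ℤ) (long : ℕ → Bool) (c bL bS : ℕ)
    (π : ℕ → ℕ) (φ : ℕ → F ≃+ F),
    (c = 2 ∨ c = 3) →
    (∀ i < l, ∀ j < l, i ≠ j → A j i ≠ 0 → A j i = if long i && !long j then -(c : ℤ) else -1) →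
    bL < l → bS < l →
    (∀ P : ℕ → Prop, P bS → P bL →
      (∀ i < l, ∀ j < l, i ≠ j → A j i ≠ 0 → long i = long j → P i → P j) → ∀ i < l, P i) →
    ((long bL = true ∧ long bS = false ∧ A bS bL ≠ 0 ∧ A bL bS ≠ 0) ∨ (∀ i < l, long i = false)) →
    (∃ i < l, ∃ j < l, i ≠ j ∧ A j i = -1) →
    (∀ i < l, π i < l) → (∀ i < l, ∀ j < l, π i = π j → i = j) →
    (∀ i < l, ∀ j < l, i ≠ j → (A (π j) (π i) ≠ 0 ↔ A j i ≠ 0)) →
    ((∀ i < l, long (π i) = long i) ∨ (∀ i < l, long (π i) = !long i)) →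
    (∀ i < l, φ i 1 = 1) → (∀ i < l, ∀ a : F, a ≠ 0 → φ i a⁻¹ = (φ i a)⁻¹) →
    (∀ i < l, ∀ j < l, ∀ a : F, a ≠ 0 → ∀ u : F,
      φ i (a ^ A j i * u) = (φ j a) ^ A (π j) (π i) * φ i u) →
    ∃ σ : F ≃+* F, ∀ i < l, ∀ t : F,
      φ i t = σ t ^ (if long (π i) && !long i then ringChar F else 1)

/-- **SD-ROOTCHAR**: an element of `Ĥ` is the diagonal matrix of a character of the root lattice. -/
def StRootChar : Prop :=
  ∀ (D : ChevalleyDatum) (F : Type u) [Field F] (z η : ℕ → ℕ → ℤ) (_ : PackB D F z η),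
    (∀ r < D.nroots, ∀ s < D.nroots, ∀ k, D.chainRoot r s 1 = some k →
      k < D.nroots ∧ s ≠ r ∧ s ≠ D.neg r) →
    ∀ k ∈ torusGroup D F, ∃ χ : ℕ → Fˣ, D.IsRootCharacter χ ∧
      ((k : GL D.Idx F) : Matrix D.Idx D.Idx F) = D.charDiag F χ ∧
      ((k⁻¹ : GL D.Idx F) : Matrix D.Idx D.Idx F) = D.charDiag F (fun r => (χ r)⁻¹)

/-- The conclusion of S2156 for one datum. -/
def StType (D : ChevalleyDatum) : Prop :=
  ∀ (F : Type u) [Field F] [Finite F] (θ : ↥(D.group F) ≃* ↥(D.group F)),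
    ∃ (x : ↥(D.group F)) (d g f : ↥(D.group F) ≃* ↥(D.group F)),
      D.IsDiagonalAut d ∧ D.IsGraphAut g ∧ D.IsFieldAut f ∧ ∀ y : ↥(D.group F), θ y = x * d (g (f y)) * x⁻¹

/-- **SD-DECOMP**: an automorphism with a normal form is inner ∘ diagonal ∘ graph ∘ field. -/
def StDecomp : Prop :=
  ∀ (D : ChevalleyDatum) (F : Type u) [Field F] [Finite F] (z η : ℕ → ℕ → ℤ) (rT w0 : List ℕ)
    (hC : PackS D F z η rT w0) (c bL bS : ℕ),
    (∀ i < D.rank, ∀ j < D.rank, D.cartan i (D.simple j) = z (D.simple i) (D.simple j)) →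
    (c = 2 ∨ c = 3) →
    (∀ i < D.rank, ∀ j < D.rank, i ≠ j → z (D.simple j) (D.simple i) ≠ 0 →
      z (D.simple j) (D.simple i) =
        if D.isLong (D.simple i) && !D.isLong (D.simple j) then -(c : ℤ) else -1) →
    bL < D.rank → bS < D.rank →
    (∀ P : ℕ → Prop, P bS → P bL →
      (∀ i < D.rank, ∀ j < D.rank, i ≠ j → z (D.simple j) (D.simple i) ≠ 0 →
        D.isLong (D.simple i) = D.isLong (D.simple j) → P i → P j) → ∀ i < D.rank, P i) →
    ((D.isLong (D.simple bL) = true ∧ D.isLong (D.simple bS) = false ∧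
        z (D.simple bS) (D.simple bL) ≠ 0 ∧ z (D.simple bL) (D.simple bS) ≠ 0) ∨
      (∀ i < D.rank, D.isLong (D.simple i) = false)) →
    (∃ i < D.rank, ∃ j < D.rank, i ≠ j ∧ z (D.simple j) (D.simple i) = -1) →
    (∀ π : ℕ → ℕ, (∀ i < D.rank, π i < D.rank) → (∀ i < D.rank, ∀ j < D.rank, π i = π j → i = j) →
      (∀ i < D.rank, ∀ j < D.rank, i ≠ j →
        (z (D.simple (π j)) (D.simple (π i)) ≠ 0 ↔ z (D.simple j) (D.simple i) ≠ 0)) →
      ((∀ i < D.rank, D.isLong (D.simple (π i)) = D.isLong (D.simple i)) ∨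
        (∀ i < D.rank, D.isLong (D.simple (π i)) = !D.isLong (D.simple i)))) →
    (∀ r < D.nroots, ∀ s < D.nroots, ∀ k, D.chainRoot r s 1 = some k →
      k < D.nroots ∧ s ≠ r ∧ s ≠ D.neg r) →
    ∀ θ : ↥(D.group F) ≃* ↥(D.group F),
    (∃ (x : ↥(D.group F)) (δ : ↥(D.group F) ≃* ↥(D.group F)) (π : ℕ → ℕ) (φ : ℕ → F ≃+ F),
      (∃ k ∈ torusGroup D F, ∀ y : ↥(D.group F),
        ((δ y : ↥(D.group F)) : GL D.Idx F) = k * (y : GL D.Idx F) * k⁻¹) ∧
      (∀ i < D.rank, π i < D.rank) ∧ (∀ i < D.rank, ∀ j < D.rank, π i = π j → i = j) ∧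
      (∀ i < D.rank, ∀ j < D.rank, i ≠ j →
        (z (D.simple (π j)) (D.simple (π i)) ≠ 0 ↔ z (D.simple j) (D.simple i) ≠ 0)) ∧
      NormalForm hC.hP.sem ((conjL x θ).trans δ) π φ) →
    ∃ (x : ↥(D.group F)) (d g f : ↥(D.group F) ≃* ↥(D.group F)),
      D.IsDiagonalAut d ∧ D.IsGraphAut g ∧ D.IsFieldAut f ∧ ∀ y : ↥(D.group F), θ y = x * d (g (f y)) * x⁻¹

end Cfsg.Agent.H23.StbD
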