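import Cfsg.Agent.H23.StbDecDefs

/-!
# S2156: the two halves of the normal-form piece (helper23)
-/

set_option autoImplicit false

namespace Cfsg.Agent.H23.StbD

open Cfsg.Lie Cfsg.Agent.H23 Cfsg.Agent.H23.Stb

universe u

/-- **SD-NF1**: every automorphism is, up to an inner automorphism, one that maps `X_{±α_i}` onto `X_{±α_{π i}}`
through additive bijections of the field, for an adjacency-preserving injection `π` of the nodes. -/
def StNF1 : Prop :=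
  ∀ (D : ChevalleyDatum) (F : Type u) [Field F] [Finite F] (p : ℕ) [Fact p.Prime] (z η : ℕ → ℕ → ℤ)
    (rT w0 : List ℕ) (hC : PackS D F z η rT w0) (adj : ℕ → ℕ → Prop) (τ : ℕ → ℕ),
    (∃ P : Sylow p ↥(D.group F),
      (P : Subgroup ↥(D.group F)) = (D.posUnipotent F).subgroupOf (D.group F)) →
    (∀ i < D.rank, τ i < D.rank) → (∀ i < D.rank, τ (τ i) = i) →
    (∀ i < D.rank, reflW D w0 (D.neg (D.simple i)) = D.simple (τ i)) →
    (∀ i < D.rank, ∀ j < D.rank, i ≠ j → ∀ t u : F,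
      xU hC.hP.sem (D.simple j) u * xU hC.hP.sem (D.neg (D.simple i)) t =
        xU hC.hP.sem (D.neg (D.simple i)) t * xU hC.hP.sem (D.simple j) u) →
    (∀ i < D.rank, ∀ j < D.rank, i ≠ j →
      ((∀ t u : F, xU hC.hP.sem (D.simple i) t * xU hC.hP.sem (D.simple j) u =
        xU hC.hP.sem (D.simple j) u * xU hC.hP.sem (D.simple i) t) ↔ ¬ adj i j)) →
    ∀ θ : ↥(D.group F) ≃* ↥(D.group F), ∃ (x : ↥(D.group F)) (π : ℕ → ℕ) (φ ψ : ℕ → F ≃+ F),
      (∀ i < D.rank, π i < D.rank) ∧ (∀ i < D.rank, ∀ j < D.rank, π i = π j → i = j) ∧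
      (∀ i < D.rank, ∀ j < D.rank, i ≠ j → (adj (π i) (π j) ↔ adj i j)) ∧
      (∀ i < D.rank, ∀ t : F,
        conjL x θ (xG hC.hP.sem (D.simple i) t) = xG hC.hP.sem (D.simple (π i)) (φ i t)) ∧
      (∀ i < D.rank, ∀ t : F,
        conjL x θ (xG hC.hP.sem (D.neg (D.simple i)) t) = xG hC.hP.sem (D.neg (D.simple (π i))) (ψ i t))

/-- **SD-NF2**: an automorphism mapping `X_{±α_i}` onto `X_{±α_{π i}}` through additive bijections is brought
into normal form by an element of `Ĥ`. -/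
def StNF2 : Prop :=
  ∀ (D : ChevalleyDatum) (F : Type u) [Field F] (z η : ℕ → ℕ → ℤ) (rT w0 : List ℕ)
    (hC : PackS D F z η rT w0) (m : ℕ → ℕ → ℤ), Coord D m →
    ∀ (θ : ↥(D.group F) ≃* ↥(D.group F)) (π : ℕ → ℕ) (φ ψ : ℕ → F ≃+ F),
    (∀ i < D.rank, π i < D.rank) → (∀ i < D.rank, ∀ j < D.rank, π i = π j → i = j) →
    (∀ i < D.rank, ∀ t : F, θ (xG hC.hP.sem (D.simple i) t) = xG hC.hP.sem (D.simple (π i)) (φ i t)) →
    (∀ i < D.rank, ∀ t : F,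
      θ (xG hC.hP.sem (D.neg (D.simple i)) t) = xG hC.hP.sem (D.neg (D.simple (π i))) (ψ i t)) →
    ∃ (δ : ↥(D.group F) ≃* ↥(D.group F)) (φ' : ℕ → F ≃+ F),
      (∃ k ∈ torusGroup D F, ∀ y : ↥(D.group F),
        ((δ y : ↥(D.group F)) : GL D.Idx F) = k * (y : GL D.Idx F) * k⁻¹) ∧
      NormalForm hC.hP.sem (θ.trans δ) π φ'

/-- The normal-form piece from its two halves. -/
theorem nf_of_halves (h1 : StNF1.{u}) (h2 : StNF2.{u}) : StNF.{u} := by
  intro D F _ _ p _ z η rT w0 hC adj τ m hsyl hτ hττ hw0 hc2 hadj hm θ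
  obtain ⟨x, π, φ, ψ, hπ, hinj, hπadj, hpos, hneg⟩ :=
    h1 D F p z η rT w0 hC adj τ hsyl hτ hττ hw0 hc2 hadj θ
  obtain ⟨δ, φ', hδ, hnf⟩ := h2 D F z η rT w0 hC m hm (conjL x θ) π φ ψ hπ hinj hpos hneg
  exact ⟨x, δ, π, φ', hδ, hπ, hinj, hπadj, hnf⟩

end Cfsg.Agent.H23.StbD
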