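import Cfsg.Agent.H23.StbDefs
import Cfsg.Agent.H23.Torus
import Cfsg.Prelude.Def_KGroupFacts

/-!
# S2124 (outer automorphisms of `E₇(q)`): statements of the team-project pieces on diagonal automorphisms (helper23)

`torusGroup D F` (`Ĥ`, H23/Torus) is the group of diagonal matrices of admissible characters; it contains
`H = D.diagonalSubgroup F` and normalises the Chevalley group.
-/

set_option autoImplicit false

namespace Cfsg.Agent.H23.Stb

open Cfsg.Lie Cfsg.Agent.H23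

universe u

/-- Coordinate functions of the indices with respect to the fundamental roots: `m i c` is the coefficient of the
`i`-th fundamental root in the weight of the index `c`. -/
structure Coord (D : ChevalleyDatum) (m : ℕ → ℕ → ℤ) : Prop where
  adm : ∀ i < D.rank, Adm D (m i)
  simple : ∀ i < D.rank, ∀ j < D.rank, m i (D.simple j) = if i = j then 1 else 0
  neg : ∀ i < D.rank, ∀ j < D.rank, m i (D.neg (D.simple j)) = if i = j then -1 else 0
  cartan : ∀ i < D.rank, ∀ k < D.rank, m i (D.nroots + k) = 0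

/-- **S2124-HATAUT**: conjugation by an element of `Ĥ` is an automorphism of the Chevalley group. -/
def StHatAut : Prop :=
  ∀ (D : ChevalleyDatum) (F : Type u) [Field F] (z : ℕ → ℕ → ℤ) (_ : Sem D F z) (k : GL D.Idx F),
    k ∈ torusGroup D F → ∃ δ : ↥(D.group F) ≃* ↥(D.group F), ∀ y : ↥(D.group F),
      ((δ y : ↥(D.group F)) : GL D.Idx F) = k * (y : GL D.Idx F) * k⁻¹

/-- **S2124-HATEX**: `Ĥ` realises every family of scalars on the fundamental root subgroups. -/
def StHatEx : Prop :=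
  ∀ (D : ChevalleyDatum) (F : Type u) [Field F] (z η : ℕ → ℕ → ℤ) (hP : PackB D F z η)
    (m : ℕ → ℕ → ℤ), Coord D m → ∀ c : ℕ → F, (∀ i < D.rank, c i ≠ 0) →
    ∃ k ∈ torusGroup D F, ∀ i < D.rank, ∀ t : F,
      k * xU hP.sem (D.simple i) t * k⁻¹ = xU hP.sem (D.simple i) (c i * t) ∧
      k * xU hP.sem (D.neg (D.simple i)) t * k⁻¹ = xU hP.sem (D.neg (D.simple i)) ((c i)⁻¹ * t)

/-- **S2124-HATCARD**: `|Ĥ| = (q - 1)^l`. -/
def StHatCard : Prop :=
  ∀ (D : ChevalleyDatum) (F : Type u) [Field F] [Finite F] (z η : ℕ → ℕ → ℤ) (_ : PackB D F z η)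
    (m : ℕ → ℕ → ℤ), Coord D m → Nat.card ↥(torusGroup D F) = (Nat.card F - 1) ^ D.rank

/-- **S2124-ASM2H**: an automorphism mapping the root subgroup of each fundamental root and of its negative to
itself is, up to conjugation by an element of `Ĥ`, the entrywise action of a field automorphism. -/
def StAsm2H : Prop :=
  ∀ (D : ChevalleyDatum) (F : Type u) [Field F] (z η : ℕ → ℕ → ℤ) (rT w0 : List ℕ)
    (hC : PackS D F z η rT w0) (m : ℕ → ℕ → ℤ), Coord D m →
    0 < D.rank →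
    (∀ i < D.rank, ∃ j < D.rank, z (D.simple j) (D.simple i) = -1) →
    (∀ P : ℕ → Prop, P 0 →
      (∀ i < D.rank, ∀ j < D.rank, z (D.simple j) (D.simple i) = -1 → P i → P j) → ∀ i < D.rank, P i) →
    (∀ a b : ↥(D.group F) →* ↥(D.group F),
      (∀ i < D.rank, ∀ t : F, a (xG hC.hP.sem (D.simple i) t) = b (xG hC.hP.sem (D.simple i) t) ∧
        a (xG hC.hP.sem (D.neg (D.simple i)) t) = b (xG hC.hP.sem (D.neg (D.simple i)) t)) → a = b) →
    ∀ θ : ↥(D.group F) ≃* ↥(D.group F),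
    (∀ i < D.rank, ∃ φ ψ : F ≃+ F,
      (∀ t : F, θ (xG hC.hP.sem (D.simple i) t) = xG hC.hP.sem (D.simple i) (φ t)) ∧
      (∀ t : F, θ (xG hC.hP.sem (D.neg (D.simple i)) t) = xG hC.hP.sem (D.neg (D.simple i)) (ψ t))) →
    ∃ k ∈ torusGroup D F, ∃ σ : F ≃+* F, ∀ y : ↥(D.group F),
      k * ((θ y : ↥(D.group F)) : GL D.Idx F) * k⁻¹ = glMap D (σ : F →+* F) (y : GL D.Idx F)

/-- **S2124-INNH**: if an inner automorphism agrees on the root elements with a diagonal automorphism composed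
with a bijection `ρ` of the field, `ρ 1 = 1`, then `ρ = id` and the diagonal element lies in `H`. -/
def StInnH : Prop :=
  ∀ (D : ChevalleyDatum) (F : Type u) [Field F] (z η : ℕ → ℕ → ℤ) (rT w0 : List ℕ)
    (hC : PackS D F z η rT w0) (g : GL D.Idx F), g ∈ D.group F → ∀ k ∈ torusGroup D F, ∀ ρ : F ≃ F,
    (∀ r < D.nroots, ∀ t : F, g * xU hC.hP.sem r t * g⁻¹ = k * xU hC.hP.sem r (ρ t) * k⁻¹) →
    ρ 1 = 1 → 0 < D.rank → (∀ t : F, ρ t = t) ∧ k ∈ D.diagonalSubgroup F

/-- **S2124-FINALH**: if every automorphism is inner ∘ diagonal ∘ field, then `|Out| · |H| = |Ĥ| · |Aut F|`. -/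
def StFinalH : Prop :=
  ∀ (D : ChevalleyDatum) (F : Type u) [Field F] [Finite F] (z η : ℕ → ℕ → ℤ) (rT w0 : List ℕ)
    (_ : PackS D F z η rT w0), 0 < D.rank →
    (∀ θ : ↥(D.group F) ≃* ↥(D.group F), ∃ g : ↥(D.group F), ∃ k ∈ torusGroup D F, ∃ σ : F ≃+* F,
      ∀ y : ↥(D.group F),
        k * ((conjL g θ y : ↥(D.group F)) : GL D.Idx F) * k⁻¹ = glMap D (σ : F →+* F) (y : GL D.Idx F)) →
    Nat.card (Cfsg.Out ↥(D.group F)) * Nat.card ↥(D.diagonalSubgroup F) =
      Nat.card ↥(torusGroup D F) * Nat.card (F ≃+* F)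

end Cfsg.Agent.H23.Stb
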