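import Mathlib

set_option autoImplicit false

/-!
# A coset-enumeration certificate for groups generated by involutions

Vertices `0, …, N - 1` carry elements `X i` of the group, each the product of the element of its parent
with a generator; the table `nx` gives the vertex reached by multiplying on the right by a generator.
Every edge which is not in the spanning tree is obtained from a relator `(s_l s_k)^m` all of whose other
edges join smaller vertices.
-/

namespace Cfsg.Agent.H23

/-- Walk along a list of generators, staying below a bound. -/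
def tcWalk (nx : ℕ → ℕ → ℕ) (bound : ℕ) : ℕ → List ℕ → Option ℕ
  | v, [] => if v < bound then some v else none
  | v, g :: gens => if v < bound then tcWalk nx bound (nx v g) gens else none

/-- The alternating word. -/
def tcAlt (l k c : ℕ) : List ℕ := (List.replicate c [l, k]).flatten

/-- The certificate. -/
structure TCCert (n N : ℕ) (m : ℕ → ℕ → ℕ) (nx : ℕ → ℕ → ℕ) (pv pg : ℕ → ℕ) : Prop where
  parent : ∀ i < N, 0 < i → pv i < i ∧ pg i < n ∧ nx i (pg i) = pv i
  inv : ∀ i < N, ∀ k < n, nx i k < N ∧ nx i k ≠ i ∧ nx (nx i k) k = i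
  cyc : ∀ i < N, 0 < i → ∀ k < n, k ≠ pg i → nx i k < i →
    1 ≤ m (pg i) k ∧ tcWalk nx i (nx i k) (tcAlt (pg i) k (m (pg i) k - 1)) = some (pv i)

theorem tcWalk_lt (nx : ℕ → ℕ → ℕ) (b : ℕ) (gens : List ℕ) (v r : ℕ) (h : tcWalk nx b v gens = some r) :
    v < b := by
  cases gens with
  | nil =>
    unfold tcWalk at h
    by_contra hv
    rw [if_neg hv] at h
    exact absurd h (by simp)
  | cons g gens =>
    unfold tcWalk at h
    by_contra hv
    rw [if_neg hv] at h
    exact absurd h (by simp)

theorem tcAlt_prod {W : Type*} [Monoid W] (s : ℕ → W) (l k c : ℕ) :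
    ((tcAlt l k c).map s).prod = (s l * s k) ^ c := by
  induction c with
  | zero => simp [tcAlt]
  | succ c ih =>
    unfold tcAlt at ih ⊢
    rw [List.replicate_succ, List.flatten_cons, List.map_append, List.prod_append, ih, pow_succ']
    simp

theorem tcAlt_lt (l k c n : ℕ) (hl : l < n) (hk : k < n) : ∀ g ∈ tcAlt l k c, g < n := by
  intro g hg
  unfold tcAlt at hg
  obtain ⟨L, hL, hgL⟩ := List.mem_flatten.mp hg
  rw [List.eq_of_mem_replicate hL] at hgL
  simp only [List.mem_cons, List.not_mem_nil, or_false] at hgL
  rcases hgL with rfl | rfl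
  · exact hl
  · exact hk

section

variable {W : Type*} [Group W] (s : ℕ → W) (X : ℕ → W) {n N : ℕ} {m : ℕ → ℕ → ℕ} {nx : ℕ → ℕ → ℕ}
  {pv pg : ℕ → ℕ}

theorem tc_walk (b : ℕ) (hQ : ∀ v < b, ∀ g < n, nx v g < b → X v * s g = X (nx v g)) :
    ∀ (gens : List ℕ), (∀ g ∈ gens, g < n) → ∀ (v r : ℕ), tcWalk nx b v gens = some r →
      X v * (gens.map s).prod = X r := by
  intro gens
  induction gens with
  | nil =>
    intro _ v r h
    have hv := tcWalk_lt nx b [] v r h
    unfold tcWalk at h
    rw [if_pos hv] at h
    have : v = r := by simpa using h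
    rw [this]; simp
  | cons g gens ih =>
    intro hg v r h
    have hv := tcWalk_lt nx b (g :: gens) v r h
    unfold tcWalk at h
    rw [if_pos hv] at h
    have hv' := tcWalk_lt nx b gens _ r h
    rw [List.map_cons, List.prod_cons, ← mul_assoc, hQ v hv g (hg g (List.mem_cons_self ..)) hv']
    exact ih (fun g' hg' => hg g' (List.mem_cons_of_mem _ hg')) _ r h

/-- All the edges of the table hold in the group. -/
theorem tc_edges (C : TCCert n N m nx pv pg) (hX : ∀ i < N, 0 < i → X i = X (pv i) * s (pg i))
    (hs2 : ∀ k < n, s k * s k = 1) (hrel : ∀ k < n, ∀ l < n, (s k * s l) ^ m k l = 1) :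
    ∀ i < N, ∀ k < n, X i * s k = X (nx i k) := by
  have key : ∀ b, b ≤ N → ∀ v < b, ∀ g < n, nx v g < b → X v * s g = X (nx v g) := by
    intro b
    induction b with
    | zero => intro _ v hv; exact absurd hv (Nat.not_lt_zero _)
    | succ i ih =>
      intro hb
      have hi : i < N := hb
      have hQ := ih (Nat.le_of_lt hi)
      -- the edges from the new vertex
      have hE : ∀ k < n, nx i k < i → X i * s k = X (nx i k) := by
        intro k hk hlt
        have hpos : 0 < i := Nat.lt_of_le_of_lt (Nat.zero_le _) hlt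
        obtain ⟨hp, hl, hnl⟩ := C.parent i hi hpos
        have hXi := hX i hi hpos
        by_cases hkl : k = pg i
        · rw [hkl, hnl, hXi, mul_assoc, hs2 _ hl, mul_one]
        · obtain ⟨hm, hwalk⟩ := C.cyc i hi hpos k hk hkl hlt
          have h1 := tc_walk s X i hQ _ (tcAlt_lt _ _ _ n hl hk) _ _ hwalk
          rw [tcAlt_prod] at h1
          have h2 := hrel _ hl k hk
          have h3 : m (pg i) k = (m (pg i) k - 1) + 1 := by omega
          rw [h3, pow_succ] at h2
          calc X i * s k
              = X (nx i k) * (s (pg i) * s k) ^ (m (pg i) k - 1) * s (pg i) * s k := by rw [hXi, h1]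
            _ = X (nx i k) * ((s (pg i) * s k) ^ (m (pg i) k - 1) * (s (pg i) * s k)) := by
                simp only [mul_assoc]
            _ = X (nx i k) := by rw [h2, mul_one]
      intro v hv g hg hlt
      rcases Nat.lt_succ_iff_lt_or_eq.mp hv with hv' | rfl
      · rcases Nat.lt_succ_iff_lt_or_eq.mp hlt with hlt' | heq
        · exact hQ v hv' g hg hlt'
        · have hinv := (C.inv v (lt_trans hv' hi) g hg).2.2
          rw [heq] at hinv
          have := hE g hg (by rw [hinv]; exact hv')
          rw [hinv] at this
          rw [heq, ← this, mul_assoc, hs2 g hg, mul_one]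
      · have hne := (C.inv v hi g hg).2.1
        exact hE g hg (lt_of_le_of_ne (Nat.lt_succ_iff.mp hlt) hne)
  intro i hi k hk
  exact key N le_rfl i hi k hk (C.inv i hi k hk).1

end

end Cfsg.Agent.H23
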