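import Cfsg.Agent.H23.TwD4g
import Mathlib.GroupTheory.Coxeter.Basic

set_option autoImplicit false
set_option maxRecDepth 100000

/-!
# `N¹/H¹` in `³D₄(q)` is the Coxeter group of type `G₂`
-/

namespace Cfsg.Agent.H23

open Cfsg.Lie

/-- The elements of the Coxeter group of type `G₂`. -/
theorem coxG2_forms (x : CoxeterMatrix.G₂.Group) :
    ∃ k < 6, x = (CoxeterMatrix.G₂.simple 0 * CoxeterMatrix.G₂.simple 1) ^ k ∨
      x = (CoxeterMatrix.G₂.simple 0 * CoxeterMatrix.G₂.simple 1) ^ k * CoxeterMatrix.G₂.simple 0 := by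
  have haa : CoxeterMatrix.G₂.simple 0 * CoxeterMatrix.G₂.simple 0 = 1 :=
    CoxeterMatrix.G₂.toCoxeterSystem.simple_mul_simple_self 0
  have hbb : CoxeterMatrix.G₂.simple 1 * CoxeterMatrix.G₂.simple 1 = 1 :=
    CoxeterMatrix.G₂.toCoxeterSystem.simple_mul_simple_self 1
  have hr6 : (CoxeterMatrix.G₂.simple 0 * CoxeterMatrix.G₂.simple 1) ^ 6 = 1 :=
    CoxeterMatrix.G₂.toCoxeterSystem.simple_mul_simple_pow 0 1
  set a := CoxeterMatrix.G₂.simple 0 with ha
  set b := CoxeterMatrix.G₂.simple 1 with hb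
  have hinva : a⁻¹ = a := inv_eq_of_mul_eq_one_left haa
  have hinvb : b⁻¹ = b := inv_eq_of_mul_eq_one_left hbb
  have hconj : ∀ k : ℤ, a * (a * b) ^ k = (a * b) ^ (-k) * a := by
    intro k
    have h1 : a * (a * b) * a⁻¹ = (a * b)⁻¹ := by
      rw [mul_inv_rev, hinva, hinvb, ← mul_assoc, haa, one_mul]
    have h2 : a * (a * b) ^ k * a⁻¹ = (a * b) ^ (-k) := by
      rw [← conj_zpow, h1, inv_zpow']
    rw [← h2, hinva, mul_assoc, mul_assoc, haa, mul_one]
  have hb' : b = a * (a * b) := by rw [← mul_assoc, haa, one_mul]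
  have hbk : ∀ k : ℤ, b * (a * b) ^ k = (a * b) ^ (-(1 + k)) * a := by
    intro k
    rw [← hconj (1 + k), zpow_one_add, ← mul_assoc, ← hb']
  have key : ∃ k : ℤ, x = (a * b) ^ k ∨ x = (a * b) ^ k * a := by
    induction x using CoxeterMatrix.G₂.toCoxeterSystem.simple_induction_left with
    | one => exact ⟨0, Or.inl (by simp)⟩
    | mul_simple_left w i ih =>
      obtain ⟨k, hk | hk⟩ := ih
      · fin_cases i
        · exact ⟨-k, Or.inr (by rw [hk]; exact hconj k)⟩
        · exact ⟨-(1 + k), Or.inr (by rw [hk]; exact hbk k)⟩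
      · fin_cases i
        · refine ⟨-k, Or.inl ?_⟩
          rw [hk]
          show a * ((a * b) ^ k * a) = _
          rw [← mul_assoc, hconj k, mul_assoc, haa, mul_one]
        · refine ⟨-(1 + k), Or.inl ?_⟩
          rw [hk]
          show b * ((a * b) ^ k * a) = _
          rw [← mul_assoc, hbk k, mul_assoc, haa, mul_one]
  obtain ⟨k, hk⟩ := key
  have hred : (a * b) ^ k = (a * b) ^ (k % 6).toNat := by
    have h6 : (a * b) ^ (6 : ℤ) = 1 := by rw [← hr6]; norm_cast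
    conv_lhs => rw [← Int.mul_ediv_add_emod k 6]
    rw [zpow_add, zpow_mul, h6, one_zpow, one_mul, ← zpow_natCast,
      Int.toNat_of_nonneg (Int.emod_nonneg k (by norm_num))]
  refine ⟨(k % 6).toNat, ?_, ?_⟩
  · have := Int.emod_lt_of_pos k (by norm_num : (0 : ℤ) < 6)
    omega
  · rw [← hred]; exact hk

/-- The powers of the Coxeter element, as words. -/
def coxWD4 (k : ℕ) : List ℕ := (List.replicate k [1, 0, 2, 3]).flatten

theorem twD4_cox_ne : ∀ k < 6, ((∀ s < chevD4.nroots, reflW chevD4 (coxWD4 k) s = reflW chevD4 [] s) → k = 0) ∧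
    ¬ (∀ s < chevD4.nroots, reflW chevD4 (coxWD4 k ++ [1]) s = reflW chevD4 [] s) := by decide +kernel

theorem twD4_cox6 : ∀ s < chevD4.nroots, reflW chevD4 (coxWD4 6) s = reflW chevD4 [] s := by decide +kernel

theorem twD4_cox6' : ∀ s < chevD4.nroots,
    reflW chevD4 ([0, 2, 3, 1, 0, 2, 3, 1, 0, 2, 3, 1, 0, 2, 3, 1, 0, 2, 3, 1, 0, 2, 3, 1]) s = reflW chevD4 [] s := by
  decide +kernel

theorem coxWD4_bw (k : ℕ) : BW blkD4 (coxWD4 k) := by
  induction k with
  | zero => exact ⟨[], by simp, rfl⟩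
  | succ k ih =>
    obtain ⟨bs, hbs, e⟩ := ih
    refine ⟨[1] :: [0, 2, 3] :: bs, ?_, ?_⟩
    · intro L hL
      simp only [List.mem_cons] at hL
      rcases hL with rfl | rfl | hL
      · decide
      · decide
      · exact hbs L hL
    · unfold coxWD4 at e ⊢
      rw [List.replicate_succ, List.flatten_cons, e]
      rfl

/-- `N¹/H¹` is the Coxeter group of type `G₂`. -/
theorem twD4_weyl {F : Type*} [Field F] [Fintype F] {q : ℕ} (hq : IsPrimePow q) (hF : Fintype.card F = q ^ 3) :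
    ∃ φ : ↥(chevD4.monomialSubgroup F ⊓ twistedD4 F q) →* (CoxeterMatrix.G₂).Group, Function.Surjective φ ∧
      φ.ker = (chevD4.diagonalSubgroup F ⊓ twistedD4 F q).subgroupOf
        (chevD4.monomialSubgroup F ⊓ twistedD4 F q) := by
  classical
  obtain ⟨T, B, hG, hblk, hcard, -, -, -, -⟩ := tw_D4 hq hF
  have hV : SemV chevD4 F := trin_D4.semV chk_D4.tblOK F
  have hP := packB_D4 F
  have hS := (packB_D4 F).sem
  have hT := (packB_D4 F).tab
  have hbw : BW B.blocks w0bD4 := by rw [hblk]; exact twD4_bw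
  have hHB : chevD4.diagonalSubgroup F ≤ chevD4.borelSubgroup F := le_sup_right
  -- the normal subgroup
  haveI hnorm : ((chevD4.diagonalSubgroup F ⊓ twistedD4 F q).subgroupOf
      (chevD4.monomialSubgroup F ⊓ twistedD4 F q)).Normal := by
    constructor
    intro h hh n
    rw [Subgroup.mem_subgroupOf] at hh ⊢
    rw [Subgroup.coe_mul, Subgroup.coe_mul, Subgroup.coe_inv]
    refine ⟨?_, Subgroup.mul_mem _ (Subgroup.mul_mem _ n.2.2 hh.2) (Subgroup.inv_mem _ n.2.2)⟩
    exact (Subgroup.mem_normalizer_iff.mp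
      (monomial_le_normalizer_diag hS hP.semN hT hP.etaNeg n.2.1) _).mp hh.1
  -- block words
  have hmem : ∀ w, BW blkD4 w → nWU hS w ∈ chevD4.monomialSubgroup F ⊓ twistedD4 F q := by
    intro w hw
    have hw' : BW B.blocks w := by rw [hblk]; exact hw
    exact ⟨nWU_mem hS hT w (hw'.lt B), nWU_bw_mem hP B _ hG.nmem w hw'⟩
  have happ : ∀ w w', BW blkD4 w → BW blkD4 w' → BW blkD4 (w ++ w') := by
    rintro w w' ⟨bs, hbs, rfl⟩ ⟨bs', hbs', rfl⟩
    refine ⟨bs ++ bs', ?_, by simp⟩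
    intro L hL
    rcases List.mem_append.mp hL with h | h
    · exact hbs L h
    · exact hbs' L h
  let g : List ℕ → ↥(chevD4.monomialSubgroup F ⊓ twistedD4 F q) ⧸
      ((chevD4.diagonalSubgroup F ⊓ twistedD4 F q).subgroupOf (chevD4.monomialSubgroup F ⊓ twistedD4 F q)) :=
    fun w => if h : nWU hS w ∈ chevD4.monomialSubgroup F ⊓ twistedD4 F q then
      QuotientGroup.mk ⟨nWU hS w, h⟩ else 1
  have hg : ∀ w (hw : BW blkD4 w), g w = QuotientGroup.mk ⟨nWU hS w, hmem w hw⟩ := by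
    intro w hw
    simp only [g, dif_pos (hmem w hw)]
  have hgmul : ∀ w w', BW blkD4 w → BW blkD4 w' → g (w ++ w') = g w * g w' := by
    intro w w' hw hw'
    rw [hg _ (happ w w' hw hw'), hg w hw, hg w' hw', ← QuotientGroup.mk_mul]
    congr 1
    exact Subtype.ext (nWU_append hS w w')
  have hg1 : ∀ w, BW blkD4 w → (g w = 1 ↔ nWU hS w ∈ chevD4.diagonalSubgroup F) := by
    intro w hw
    rw [hg w hw, QuotientGroup.eq_one_iff, Subgroup.mem_subgroupOf]
    exact ⟨fun h => h.1, fun h => ⟨h, (hmem w hw).2⟩⟩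
  have hnil : nWU hS ([] : List ℕ) = 1 := by simp [nWU]
  have hg1' : ∀ w, BW blkD4 w → (g w = 1 ↔ ∀ s < chevD4.nroots, reflW chevD4 w s = reflW chevD4 [] s) := by
    intro w hw
    have hw' : BW B.blocks w := by rw [hblk]; exact hw
    rw [hg1 w hw]
    constructor
    · intro h
      apply refl_eq_of_dcB_word_eq hP w [] (hw'.lt B) (by simp)
      rw [hnil]
      have := dcB_mul_right (D := chevD4) (F := F) (hHB h) 1
      rwa [one_mul] at this
    · intro h
      have := nWU_rel_of_refl_eq hP w [] (hw'.lt B) (by simp) h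
      rwa [hnil, inv_one, mul_one] at this
  have hb1 : BW blkD4 [1] := ⟨[[1]], by decide, rfl⟩
  have hb2 : BW blkD4 [0, 2, 3] := ⟨[[0, 2, 3]], by decide, rfl⟩
  -- the homomorphism from the Coxeter group
  have hlift : CoxeterMatrix.G₂.IsLiftable (fun i : Fin 2 => if i = 0 then g [1] else g [0, 2, 3]) := by
    intro i i'
    fin_cases i <;> fin_cases i'
    · show (g [1] * g [1]) ^ 1 = 1
      rw [pow_one, ← hgmul _ _ hb1 hb1, hg1 _ (happ _ _ hb1 hb1), nWU_append]
      exact nWU_block_sq hS hT [1] (B.blk [1] (by rw [hblk]; decide)).ok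
    · show (g [1] * g [0, 2, 3]) ^ 6 = 1
      have e : (g [1] * g [0, 2, 3]) ^ 6 = g (coxWD4 6) := by
        have h1 : g [1] * g [0, 2, 3] = g [1, 0, 2, 3] := (hgmul _ _ hb1 hb2).symm
        have h2 : ∀ k, g [1, 0, 2, 3] ^ k = g (coxWD4 k) := by
          intro k
          induction k with
          | zero =>
            rw [pow_zero]
            exact ((hg1' _ (coxWD4_bw 0)).mpr (fun s _ => rfl)).symm
          | succ k ih =>
            rw [pow_succ', ih]
            exact (hgmul _ _ (coxWD4_bw 1) (coxWD4_bw k)).symm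
        rw [h1, h2]
      rw [e]
      exact (hg1' _ (coxWD4_bw 6)).mpr twD4_cox6
    · show (g [0, 2, 3] * g [1]) ^ 6 = 1
      have hb21 : BW blkD4 [0, 2, 3, 1] := happ _ _ hb2 hb1
      have h1 : g [0, 2, 3] * g [1] = g [0, 2, 3, 1] := (hgmul _ _ hb2 hb1).symm
      rw [h1]
      have h2 : g [0, 2, 3, 1] ^ 6 =
          g ([0, 2, 3, 1, 0, 2, 3, 1, 0, 2, 3, 1, 0, 2, 3, 1, 0, 2, 3, 1, 0, 2, 3, 1]) := by
        have a2 := hgmul _ _ hb21 hb21
        have a3 := hgmul _ _ hb21 (happ _ _ hb21 hb21)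
        have a4 := hgmul _ _ hb21 (happ _ _ hb21 (happ _ _ hb21 hb21))
        have a5 := hgmul _ _ hb21 (happ _ _ hb21 (happ _ _ hb21 (happ _ _ hb21 hb21)))
        have a6 := hgmul _ _ hb21 (happ _ _ hb21 (happ _ _ hb21 (happ _ _ hb21 (happ _ _ hb21 hb21))))
        simp only [List.cons_append, List.nil_append] at a2 a3 a4 a5 a6
        rw [a6, a5, a4, a3, a2]
        simp only [pow_succ, pow_zero, one_mul, mul_assoc]
      rw [h2]
      exact (hg1' _ (happ _ _ hb21 (happ _ _ hb21 (happ _ _ hb21 (happ _ _ hb21 (happ _ _ hb21 hb21)))))).mpr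
        twD4_cox6'
    · show (g [0, 2, 3] * g [0, 2, 3]) ^ 1 = 1
      rw [pow_one, ← hgmul _ _ hb2 hb2, hg1 _ (happ _ _ hb2 hb2), nWU_append]
      exact nWU_block_sq hS hT [0, 2, 3] (B.blk [0, 2, 3] (by rw [hblk]; decide)).ok
  have hψ0 : CoxeterMatrix.G₂.toCoxeterSystem.lift ⟨_, hlift⟩ (CoxeterMatrix.G₂.simple 0) = g [1] := by
    have := CoxeterMatrix.G₂.toCoxeterSystem.lift_apply_simple hlift 0
    simpa using this
  have hψ1 : CoxeterMatrix.G₂.toCoxeterSystem.lift ⟨_, hlift⟩ (CoxeterMatrix.G₂.simple 1) = g [0, 2, 3] := by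
    have := CoxeterMatrix.G₂.toCoxeterSystem.lift_apply_simple hlift 1
    simpa using this
  generalize CoxeterMatrix.G₂.toCoxeterSystem.lift ⟨_, hlift⟩ = ψ at hψ0 hψ1
  have hpow : ∀ k, g [1, 0, 2, 3] ^ k = g (coxWD4 k) := by
    intro k
    induction k with
    | zero =>
      rw [pow_zero]
      exact ((hg1' _ (coxWD4_bw 0)).mpr (fun s _ => rfl)).symm
    | succ k ih =>
      rw [pow_succ', ih]
      exact (hgmul _ _ (coxWD4_bw 1) (coxWD4_bw k)).symm
  have hψr : ∀ k, ψ ((CoxeterMatrix.G₂.simple 0 * CoxeterMatrix.G₂.simple 1) ^ k) = g (coxWD4 k) := by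
    intro k
    rw [map_pow, map_mul, hψ0, hψ1, ← hgmul _ _ hb1 hb2]
    exact hpow k
  have hinj : Function.Injective ψ := by
    rw [injective_iff_map_eq_one]
    intro x hx
    obtain ⟨k, hk, rfl | rfl⟩ := coxG2_forms x
    · rw [hψr k] at hx
      have := (twD4_cox_ne k hk).1 ((hg1' _ (coxWD4_bw k)).mp hx)
      rw [this, pow_zero]
    · rw [map_mul, hψr k, hψ0, ← hgmul _ _ (coxWD4_bw k) hb1] at hx
      exact absurd ((hg1' _ (happ _ _ (coxWD4_bw k) hb1)).mp hx) (twD4_cox_ne k hk).2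
  have hrange : ∀ bs : List (List ℕ), (∀ L ∈ bs, L ∈ blkD4) → ∃ x, ψ x = g bs.flatten := by
    intro bs
    induction bs with
    | nil =>
      intro _
      exact ⟨1, by rw [map_one]; exact ((hg1' [] ⟨[], by simp, rfl⟩).mpr (fun s _ => rfl)).symm⟩
    | cons L bs ih =>
      intro hbs
      obtain ⟨x, hx⟩ := ih (fun L' hL' => hbs L' (List.mem_cons_of_mem _ hL'))
      have hL := hbs L (List.mem_cons_self ..)
      have hbL : BW blkD4 L := ⟨[L], by simpa using hL, by simp⟩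
      have hbr : BW blkD4 bs.flatten := ⟨bs, fun L' hL' => hbs L' (List.mem_cons_of_mem _ hL'), rfl⟩
      rw [List.flatten_cons, hgmul _ _ hbL hbr, ← hx]
      simp only [blkD4, List.mem_cons, List.not_mem_nil, or_false] at hL
      rcases hL with rfl | rfl
      · exact ⟨CoxeterMatrix.G₂.simple 0 * x, by rw [map_mul, hψ0]⟩
      · exact ⟨CoxeterMatrix.G₂.simple 1 * x, by rw [map_mul, hψ1]⟩
  have hsurj : Function.Surjective ψ := by
    intro y
    obtain ⟨n, rfl⟩ := QuotientGroup.mk_surjective y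
    obtain ⟨h, hh, hhK, w, hw, e⟩ := tw_mono hP hV tabT_D4 tabL_D4 B hG w0bD4 tabW_D4b hbw n.1 n.2.1 n.2.2
    have hw' : BW blkD4 w := by rw [← hblk]; exact hw
    have hhN : h ∈ chevD4.monomialSubgroup F ⊓ twistedD4 F q := ⟨diagonal_le_monomial hh, hhK⟩
    have e1 : n = ⟨h, hhN⟩ * ⟨nWU hS w, hmem w hw'⟩ := Subtype.ext e
    have e2 : (QuotientGroup.mk n : _ ⧸ ((chevD4.diagonalSubgroup F ⊓ twistedD4 F q).subgroupOf
        (chevD4.monomialSubgroup F ⊓ twistedD4 F q))) = g w := by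
      rw [hg w hw', e1, QuotientGroup.mk_mul]
      have : (QuotientGroup.mk (⟨h, hhN⟩ : ↥(chevD4.monomialSubgroup F ⊓ twistedD4 F q)) :
          _ ⧸ ((chevD4.diagonalSubgroup F ⊓ twistedD4 F q).subgroupOf
            (chevD4.monomialSubgroup F ⊓ twistedD4 F q))) = 1 := by
        rw [QuotientGroup.eq_one_iff, Subgroup.mem_subgroupOf]
        exact ⟨hh, hhK⟩
      rw [this, one_mul]
    obtain ⟨bs, hbs, rfl⟩ := hw'
    obtain ⟨x, hx⟩ := hrange bs hbs
    exact ⟨x, by rw [hx, e2]⟩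
  refine ⟨(MulEquiv.ofBijective ψ ⟨hinj, hsurj⟩).symm.toMonoidHom.comp (QuotientGroup.mk' _), ?_, ?_⟩
  · exact (MulEquiv.ofBijective ψ ⟨hinj, hsurj⟩).symm.surjective.comp (QuotientGroup.mk'_surjective _)
  · ext x
    rw [MonoidHom.mem_ker, MonoidHom.comp_apply]
    show (MulEquiv.ofBijective ψ ⟨hinj, hsurj⟩).symm (QuotientGroup.mk' _ x) = 1 ↔ _
    rw [MulEquiv.map_eq_one_iff, QuotientGroup.mk'_apply, QuotientGroup.eq_one_iff]

end Cfsg.Agent.H23
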