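import Cfsg.Agent.H23.Tw15
import Cfsg.Agent.H23.TwE6e
import Cfsg.Agent.H23.TwD4h

set_option autoImplicit false
set_option maxRecDepth 100000

/-!
# `²E₆(q)` is perfect
-/

namespace Cfsg.Agent.H23

open Cfsg.Lie

open scoped commutatorElement

theorem twE6_posneg : chevE6.IsPosRoot 56 ∧ chevE6.IsPosRoot 46 ∧ chevE6.IsPosRoot 42 ∧ chevE6.IsPosRoot 39 ∧
    chevE6.IsPosRoot 37 ∧ chevE6.IsPosRoot 36 ∧ chevE6.IsNegRoot 15 ∧ chevE6.IsNegRoot 25 ∧
    chevE6.IsNegRoot 29 ∧ chevE6.IsNegRoot 32 ∧ chevE6.IsNegRoot 34 ∧ chevE6.IsNegRoot 35 := by decide +kernel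

theorem twE6_sp : chevE6.commTerms 46 39 = [(47, -1, 1, 1)] ∧ chevE6.neg 46 ≠ 39 ∧
    reflW chevE6 [3] 46 = 47 ∧ reflW chevE6 [1] 39 = 47 := by decide +kernel

section

variable {F : Type*} [Field F]

theorem twE6_UV (q : ℕ) (M : Subgroup (GL chevE6.Idx F))
    (hU : ∀ u ∈ chevE6.posUnipotent F ⊓ twistedE6 F q, u ∈ M)
    (hV : ∀ v ∈ chevE6.negUnipotent F ⊓ twistedE6 F q, v ∈ M) : twistedE6 F q ≤ M := by
  have hS := (packB_E6 F).sem
  have hle : ∀ g, g ∈ {g : GL chevE6.Idx F | ∃ w ∈ e6Words F q,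
      (g : Matrix chevE6.Idx chevE6.Idx F) = chevE6.wordMat F w} → g ∈ M := by
    rintro g ⟨w, hw, hgw⟩
    have hgK : g ∈ twistedE6 F q := Subgroup.subset_closure ⟨w, hw, hgw⟩
    rw [eq_wordU (packB_E6 F).sem g w hgw] at hgK ⊢
    rcases hw with ⟨t, ht, r, hr, rfl⟩ | ⟨t, rs, hrs, rfl⟩
    · simp only [wordU_cons, wordU_nil, mul_one] at hgK ⊢
      have hr' : r = 46 ∨ r = 25 ∨ r = 39 ∨ r = 32 := by simpa [e6p2, e6m2, e6p4, e6m4] using hr
      rcases hr' with rfl | rfl | rfl | rfl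
      · exact hU _ ⟨xU_mem_rootGen hS chevE6.IsPosRoot 46 twE6_posneg.2.1 t, hgK⟩
      · exact hV _ ⟨xU_mem_rootGen hS chevE6.IsNegRoot 25 twE6_posneg.2.2.2.2.2.2.2.1 t, hgK⟩
      · exact hU _ ⟨xU_mem_rootGen hS chevE6.IsPosRoot 39 twE6_posneg.2.2.2.1 t, hgK⟩
      · exact hV _ ⟨xU_mem_rootGen hS chevE6.IsNegRoot 32 twE6_posneg.2.2.2.2.2.2.2.2.2.1 t, hgK⟩
    · simp only [wordU_cons, wordU_nil, mul_one] at hgK ⊢
      have hrs' : rs = (56, 36) ∨ rs = (15, 35) ∨ rs = (42, 37) ∨ rs = (29, 34) := by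
        simpa [e6p1, e6p3, e6p5, e6p6, e6m1, e6m3, e6m5, e6m6] using hrs
      rcases hrs' with rfl | rfl | rfl | rfl
      · refine hU _ ⟨?_, hgK⟩
        exact Subgroup.mul_mem _ (xU_mem_rootGen hS chevE6.IsPosRoot 56 twE6_posneg.1 _)
          (xU_mem_rootGen hS chevE6.IsPosRoot 36 twE6_posneg.2.2.2.2.2.1 _)
      · refine hV _ ⟨?_, hgK⟩
        exact Subgroup.mul_mem _ (xU_mem_rootGen hS chevE6.IsNegRoot 15 twE6_posneg.2.2.2.2.2.2.1 _)
          (xU_mem_rootGen hS chevE6.IsNegRoot 35 twE6_posneg.2.2.2.2.2.2.2.2.2.2.2 _)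
      · refine hU _ ⟨?_, hgK⟩
        exact Subgroup.mul_mem _ (xU_mem_rootGen hS chevE6.IsPosRoot 42 twE6_posneg.2.2.1 _)
          (xU_mem_rootGen hS chevE6.IsPosRoot 37 twE6_posneg.2.2.2.2.1 _)
      · refine hV _ ⟨?_, hgK⟩
        exact Subgroup.mul_mem _ (xU_mem_rootGen hS chevE6.IsNegRoot 29 twE6_posneg.2.2.2.2.2.2.2.2.1 _)
          (xU_mem_rootGen hS chevE6.IsNegRoot 34 twE6_posneg.2.2.2.2.2.2.2.2.2.2.1 _)
  unfold twistedE6 ChevalleyDatum.genSubgroup
  rw [Subgroup.closure_le]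
  exact hle

/-- The root elements `x₄₇(v)` with `v` fixed are commutators. -/
theorem twE6_x47 (q : ℕ) (v : F) (hv : v ^ q = v) :
    xU (packB_E6 F).sem 47 v ∈ commK (twistedE6 F q) := by
  have hS := (packB_E6 F).sem
  have h1 := (Pc_iff hS 46 39).mp (commAll_E6 46 39 (by decide) (by decide) (by decide)
    (fun h => twE6_sp.2.1 h.symm)) v (1 : F)
  simp only [ChevalleyDatum.commWord, twE6_sp.1, List.map_cons, List.map_nil, wordU_cons, wordU_nil,
    mul_one, pow_one] at h1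
  have e : ((-1 : ℤ) : F) * -v = v := by push_cast; ring
  rw [e] at h1
  have hA : xU hS 46 v ∈ twistedE6 F q := twE6_mem1 q v hv 46 (by decide)
  have hB : xU hS 39 (1 : F) ∈ twistedE6 F q := twE6_mem1 q 1 (one_pow q) 39 (by decide)
  have hZ : xU hS 47 v = ⁅(xU hS 39 (1 : F))⁻¹, (xU hS 46 v)⁻¹⁆ := by
    rw [commutatorElement_def, inv_inv, inv_inv]
    have : (xU hS 39 (1 : F))⁻¹ * (xU hS 46 v)⁻¹ * xU hS 39 1 * xU hS 46 v =
        (xU hS 39 (1 : F))⁻¹ * (xU hS 46 v)⁻¹ * (xU hS 39 1 * xU hS 46 v) := by group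
    rw [this, h1]; group
  rw [hZ]
  exact comm_mem_commK _ _ _ (Subgroup.inv_mem _ hB) (Subgroup.inv_mem _ hA)

end

/-- `²E₆(q)` is perfect. -/
theorem twE6_perfect {F : Type*} [Field F] [Fintype F] {q : ℕ} (hq : IsPrimePow q)
    (hF : Fintype.card F = q ^ 2) : commutator ↥(twistedE6 F q) = ⊤ := by
  classical
  obtain ⟨T, B, hG, hblk, hcard, hφT, hsig, hBS, hBgen⟩ := tw_E6 hq hF
  have hV : SemV chevE6 F := trin_E6.semV chk_E6.tblOK F
  have hP := packB_E6 F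
  have hS := (packB_E6 F).sem
  have hT := (packB_E6 F).tab
  have hbw : BW B.blocks w0bE6 := by rw [hblk]; exact twE6_bw
  have hm1 : (-1 : F) ^ q = -1 := by rw [← hφT]; simp
  have hq1 : 1 < q := hq.one_lt
  have hcard4 : 3 < Fintype.card F := by
    rw [hF]
    calc 3 < 2 ^ 2 := by norm_num
      _ ≤ q ^ 2 := Nat.pow_le_pow_left hq1 2
  obtain ⟨a, ha0, ha1, ham1⟩ := exists_ne3 F hcard4
  have ha2 : a ^ 2 - 1 ≠ 0 := by
    intro h
    have h3 : (a - 1) * (a + 1) = 0 := by linear_combination h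
    rcases mul_eq_zero.mp h3 with h | h
    · exact ha1 (by linear_combination h)
    · exact ham1 (by linear_combination h)
  have hφne : T.φ (a ^ 2) - 1 ≠ 0 := by
    rw [← map_one T.φ, ← map_sub]; exact (map_ne_zero T.φ).mpr ha2
  apply tw_perfect (packB_E6 F) hV tabT_E6 tabL_E6 B hG w0bE6 tabW_E6b hbw (twE6_UV q)
  intro L hL s hs
  rw [hblk] at hL
  simp only [blkE6, List.mem_cons, List.not_mem_nil, or_false] at hL
  rw [hBgen]
  rw [hBS] at hs
  -- the blocks of the fixed nodes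
  have hfixed : ∀ (i j r : ℕ), (i = 1 ∧ j = 3 ∧ r = 46) ∨ (i = 3 ∧ j = 1 ∧ r = 39) → ∀ s : F, s ^ q = s →
      xU hS r s ∈ commK (twistedE6 F q) := by
    intro i j r h s hsq
    have hjK : nWU hS [j] ∈ twistedE6 F q := by
      rcases h with ⟨-, rfl, -⟩ | ⟨-, rfl, -⟩
      · exact hG.nmem [3] (by rw [hblk]; decide)
      · exact hG.nmem [1] (by rw [hblk]; decide)
    have hjr : j < chevE6.rank ∧ r < chevE6.nroots ∧ reflW chevE6 [j] r = 47 := by
      rcases h with ⟨-, rfl, rfl⟩ | ⟨-, rfl, rfl⟩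
      · exact ⟨by decide, by decide, twE6_sp.2.2.1⟩
      · exact ⟨by decide, by decide, twE6_sp.2.2.2⟩
    obtain ⟨c, hc, hconj⟩ := nWU_conj hS hP.semN hT [j] (by simpa using hjr.1) r hjr.2.1
    have h47 := hconj s
    rw [hjr.2.2] at h47
    have hcs : (c * s) ^ q = c * s := by
      rcases hc with rfl | rfl
      · rw [one_mul, hsq]
      · rw [mul_pow, hm1, hsq]
    have e : xU hS r s = (nWU hS [j])⁻¹ * xU hS 47 (c * s) * ((nWU hS [j])⁻¹)⁻¹ := by
      rw [← h47]; group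
    rw [e]
    exact conj_mem_commK _ _ (Subgroup.inv_mem _ hjK) _ (twE6_x47 q _ hcs)
  -- the blocks of the pairs of nodes
  have hpair : ∀ (i j : ℕ) (κ : GL chevE6.Idx F), i < chevE6.rank → j < chevE6.rank → i ≠ j →
      [i, j] ∈ B.blocks → T.sig i = j →
      (∀ u v : F, Commute (xU hS (chevE6.simple i) u) (xU hS (chevE6.simple j) v)) →
      κ ∈ chevE6.diagonalSubgroup F → κ ∈ twistedE6 F q → dgR chevE6 (chevE6.simple i) κ = a ^ 2 →
      ∀ s : F, twGen2 hS T.φ [i, j] s ∈ commK (twistedE6 F q) := by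
    intro i j κ hi hj hij hmem hsg hxx0 hκH hκK hd s
    have hfix := hG.fix _ hκK
    have e0 := dgR_equiv (packB_E6 F) T _ hκH hfix i hi
    rw [hsg, hd] at e0
    have hgen : ∀ s : F, twGen2 hS T.φ [i, j] s = xL hS [i, j] (fun k => if k = i then s else T.φ s) := by
      intro s
      simp [twGen2, xL_cons, xL_nil, hij.symm]
    have hg₀K : twGen2 hS T.φ [i, j] (s / (a ^ 2 - 1)) ∈ twistedE6 F q := by
      have := hG.gmem [i, j] hmem (s / (a ^ 2 - 1)) (by rw [hBS]; simp [twS2])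
      rwa [hBgen] at this
    have hxx : ∀ k ∈ [i, j], ∀ k' ∈ [i, j], k ≠ k' → ∀ u v : F,
        Commute (xU hS (chevE6.simple k) u) (xU hS (chevE6.simple k') v) := by
      intro k hk k' hk' hne u v
      simp only [List.mem_cons, List.not_mem_nil, or_false] at hk hk'
      rcases hk with rfl | rfl <;> rcases hk' with rfl | rfl
      · exact absurd rfl hne
      · exact hxx0 u v
      · exact (hxx0 v u).symm
      · exact absurd rfl hne
    have hcomm := comm_diag_xL hS hT _ hκH [i, j] (by simp [hi, hj]) (by simp [hij]) hxx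
      (fun k => if k = i then s / (a ^ 2 - 1) else T.φ (s / (a ^ 2 - 1)))
    have hres : twGen2 hS T.φ [i, j] s = ⁅κ, twGen2 hS T.φ [i, j] (s / (a ^ 2 - 1))⁆ := by
      rw [hgen s, hgen (s / (a ^ 2 - 1)), hcomm]
      apply xL_congr
      intro k hk
      simp only [List.mem_cons, List.not_mem_nil, or_false] at hk
      rcases hk with rfl | rfl
      · rw [hd]
        simp only [if_true]
        field_simp
      · rw [e0]
        simp only [hij.symm, if_false, map_div₀, map_sub, map_one]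
        field_simp
    rw [hres]
    exact comm_mem_commK _ _ _ hκK hg₀K
  rcases hL with rfl | rfl | rfl | rfl
  · have hs1 : T.φ s = s := by simpa [twS2] using hs
    have hsq : s ^ q = s := by rw [← hφT]; exact hs1
    show xU hS (chevE6.simple 1) s ∈ commK (twistedE6 F q)
    rw [twE6_simples.2.1]
    exact hfixed 1 3 46 (Or.inl ⟨rfl, rfl, rfl⟩) s hsq
  · have hs1 : T.φ s = s := by simpa [twS2] using hs
    have hsq : s ^ q = s := by rw [← hφT]; exact hs1
    show xU hS (chevE6.simple 3) s ∈ commK (twistedE6 F q)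
    rw [twE6_simples.2.2.2.1]
    exact hfixed 3 1 39 (Or.inr ⟨rfl, rfl, rfl⟩) s hsq
  · refine hpair 0 5 (hE6 F q 1 1 a 1) (by decide) (by decide) (by decide) (by rw [hblk]; decide)
      (by rw [hsig]; exact twE6_sigs.1) ?_ (hE6_mem_diag q 1 1 a 1 one_ne_zero one_ne_zero ha0 one_ne_zero)
      (hE6_mem q hm1 1 1 a 1 (one_pow q) (one_pow q)) ?_ s
    · intro u v
      rw [twE6_simples.1, twE6_simples.2.2.2.2.2]
      exact twE6_comm (56, 36) (by decide) u v
    · rw [twE6_simples.1, (hE6_dg q 1 1 a 1 one_ne_zero one_ne_zero ha0 one_ne_zero).1]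
      simp
  · refine hpair 2 4 (hE6 F q 1 1 1 a) (by decide) (by decide) (by decide) (by rw [hblk]; decide)
      (by rw [hsig]; exact twE6_sigs.2.2.1) ?_ (hE6_mem_diag q 1 1 1 a one_ne_zero one_ne_zero one_ne_zero ha0)
      (hE6_mem q hm1 1 1 1 a (one_pow q) (one_pow q)) ?_ s
    · intro u v
      rw [twE6_simples.2.2.1, twE6_simples.2.2.2.2.1]
      exact twE6_comm (42, 37) (by decide) u v
    · rw [twE6_simples.2.2.1, (hE6_dg q 1 1 1 a one_ne_zero one_ne_zero one_ne_zero ha0).2.2.1]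
      simp

end Cfsg.Agent.H23
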