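import Cfsg.Agent.H23.Tw16
import Cfsg.Agent.H23.TwE6f

set_option autoImplicit false
set_option maxRecDepth 100000

/-!
# `²E₆(q)` is simple
-/

namespace Cfsg.Agent.H23

open Cfsg.Lie

theorem twE6_irr : ∀ Js ∈ blkE6.sublists, (∃ L ∈ blkE6, L ∈ Js) → (∃ L ∈ blkE6, L ∉ Js) →
    ∃ L ∈ blkE6, L ∈ Js ∧ ∃ L' ∈ blkE6, L' ∉ Js ∧ ∃ r < chevE6.nroots, chevE6.IsPosRoot r ∧
      chevE6.IsNegRoot (reflW chevE6 (L ++ L' ++ L.reverse ++ L'.reverse) r) := by decide +kernel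

/-- `²E₆(q)` is simple. -/
theorem twE6_simple {F : Type*} [Field F] [Fintype F] {q : ℕ} (hq : IsPrimePow q)
    (hF : Fintype.card F = q ^ 2) : IsSimpleGroup ↥(twistedE6 F q) ∧ ¬ IsMulCommutative ↥(twistedE6 F q) := by
  obtain ⟨T, B, hG, hblk, hcard, -, hsig, -, -⟩ := tw_E6 hq hF
  have hV : SemV chevE6 F := trin_E6.semV chk_E6.tblOK F
  exact tw_simple_of (packB_E6 F) hV tabT_E6 tabL_E6 B hG w0bE6 tabW_E6b (by rw [hblk]; exact twE6_bw)
    (by rw [hblk]; exact twE6_inj) (by rw [hblk]; exact sub_of_table T sigE6a hsig blkE6 twE6_sub)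
    (by rw [hblk]; exact twE6_negL) (exists_gen_ne_one B q hq.one_lt hcard) (by rw [hblk]; exact twE6_irr)
    (twE6_perfect hq hF) ⟨[1], by rw [hblk]; decide⟩

end Cfsg.Agent.H23
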