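import Cfsg.Agent.H23.Tw17
import Cfsg.Agent.H23.TwE6Dat2
import Cfsg.Agent.H23.TwE6j

set_option autoImplicit false
set_option maxRecDepth 1000000

/-!
# A coset-enumeration certificate for the Coxeter group of type `F₄`: the checks
-/

namespace Cfsg.Agent.H23

open Cfsg.Lie

/-- The Coxeter matrix of type `F₄`. -/
def mF4L : List (List ℕ) := [[1, 3, 2, 2], [3, 1, 4, 2], [2, 4, 1, 3], [2, 2, 3, 1]]

/-- The entries of the Coxeter matrix of type `F₄`. -/
def mF4 (k l : ℕ) : ℕ := (mF4L.getD k []).getD l 0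

/-- The blocks of `²E₆`, in the order of the Coxeter diagram of type `F₄`. -/
def blkF4 : List (List ℕ) := [[1], [3], [2, 4], [0, 5]]

/-- The word in the fundamental reflections of `E₆` of a word in the blocks. -/
def repF4 (w : List ℕ) : List ℕ := (w.map (fun k => blkF4.getD k [])).flatten

/-- The table. -/
def nxF4 (v g : ℕ) : ℕ := Nat.land (Nat.shiftRight tcNXF4 (Nat.mul 12 (Nat.add (Nat.mul 4 v) g))) 4095

/-- The parent vertices. -/
def pvF4 (i : ℕ) : ℕ := Nat.land (Nat.shiftRight tcPVF4 (Nat.mul 12 i)) 4095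

/-- The parent generators. -/
def pgF4 (i : ℕ) : ℕ := Nat.land (Nat.shiftRight tcPGF4 (Nat.mul 2 i)) 3

theorem tcF4_w0 : tcWordsF4.getD 0 [] = [] ∧ tcWordsF4.length = 1152 := by decide +kernel

theorem tcF4_parent : ∀ i < 1152, 0 < i → pvF4 i < i ∧ pgF4 i < 4 ∧ nxF4 i (pgF4 i) = pvF4 i := by
  decide +kernel

theorem tcF4_inv : ∀ i < 1152, ∀ k < 4, nxF4 i k < 1152 ∧ nxF4 i k ≠ i ∧ nxF4 (nxF4 i k) k = i := by
  decide +kernel

theorem tcF4_cyc' : ∀ i < 1152, ∀ k < 4, k = pgF4 i ∨ i ≤ nxF4 i k ∨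
    (1 ≤ mF4 (pgF4 i) k ∧
      tcWalk nxF4 i (nxF4 i k) (tcAlt (pgF4 i) k (mF4 (pgF4 i) k - 1)) = some (pvF4 i)) := by decide +kernel

theorem tcF4_cert : TCCert 4 1152 mF4 nxF4 pvF4 pgF4 where
  parent := tcF4_parent
  inv := tcF4_inv
  cyc := by
    intro i hi _ k hk hne hlt
    rcases tcF4_cyc' i hi k hk with h | h | h
    · exact absurd h hne
    · exact absurd hlt (not_lt.mpr h)
    · exact h

theorem tcF4_words : ∀ e ∈ List.zip (List.range 1152) tcWordsF4, 0 < e.1 →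
    e.2 = tcWordsF4.getD (pvF4 e.1) [] ++ [pgF4 e.1] := by decide +kernel

theorem tcF4_code : ∀ e ∈ List.zip (List.range 1152) tcWordsF4, 0 < e.1 →
    codeWE6 (repF4 e.2) ≠ codeWE6 [] := by decide +kernel

theorem tcF4_rel : ∀ k < 4, ∀ l < 4, ∀ s < chevE6.nroots,
    reflWT rTE6 ((List.replicate (mF4 k l) (blkF4.getD k [] ++ blkF4.getD l [])).flatten) s = s := by
  decide +kernel

theorem tcF4_words_lt : ∀ w ∈ tcWordsF4, ∀ k ∈ w, k < 4 := by decide +kernel

end Cfsg.Agent.H23
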