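import Cfsg.Agent.H23.TwE6m
import Cfsg.Agent.H23.TwE6k
import Mathlib.GroupTheory.Coxeter.Basic

set_option autoImplicit false
set_option maxRecDepth 100000

/-!
# `N¹/H¹` in `²E₆(q)` is the Coxeter group of type `F₄`
-/

namespace Cfsg.Agent.H23

open Cfsg.Lie

/-- The generators of the Coxeter group of type `F₄`. -/
noncomputable def sF4 (k : ℕ) : CoxeterMatrix.F₄.Group := if h : k < 4 then CoxeterMatrix.F₄.simple ⟨k, h⟩ else 1

theorem mF4_eq (k l : ℕ) (hk : k < 4) (hl : l < 4) : CoxeterMatrix.F₄ ⟨k, hk⟩ ⟨l, hl⟩ = mF4 k l := by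
  interval_cases k <;> interval_cases l <;> rfl

/-- The elements of the Coxeter group of type `F₄`. -/
theorem coxF4_forms (x : CoxeterMatrix.F₄.Group) :
    ∃ i < 1152, x = ((tcWordsF4.getD i []).map sF4).prod := by
  have hX : ∀ i < 1152, 0 < i → ((tcWordsF4.getD i []).map sF4).prod =
      ((tcWordsF4.getD (pvF4 i) []).map sF4).prod * sF4 (pgF4 i) := by
    intro i hi hpos
    have e : (List.range 1152).getD i 0 = i := by
      rw [List.getD_eq_getElem _ _ (by simpa using hi)]; simp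
    have hmem := zip_getD_mem (List.range 1152) tcWordsF4 0 [] i (by simpa using hi)
      (by rw [tcF4_w0.2]; exact hi)
    rw [e] at hmem
    have this : tcWordsF4.getD i [] = tcWordsF4.getD (pvF4 i) [] ++ [pgF4 i] := tcF4_words _ hmem hpos
    rw [this, List.map_append, List.prod_append]
    simp
  have hs2 : ∀ k < 4, sF4 k * sF4 k = 1 := by
    intro k hk
    unfold sF4
    rw [dif_pos hk]
    exact CoxeterMatrix.F₄.toCoxeterSystem.simple_mul_simple_self _
  have hrel : ∀ k < 4, ∀ l < 4, (sF4 k * sF4 l) ^ mF4 k l = 1 := by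
    intro k hk l hl
    unfold sF4
    rw [dif_pos hk, dif_pos hl, ← mF4_eq k l hk hl]
    exact CoxeterMatrix.F₄.toCoxeterSystem.simple_mul_simple_pow ⟨k, hk⟩ ⟨l, hl⟩
  have hedge := tc_edges sF4 (fun i => ((tcWordsF4.getD i []).map sF4).prod) tcF4_cert hX hs2 hrel
  induction x using CoxeterMatrix.F₄.toCoxeterSystem.simple_induction_right with
  | one => exact ⟨0, by norm_num, by rw [tcF4_w0.1]; simp⟩
  | mul_simple_right w i ih =>
    obtain ⟨j, hj, rfl⟩ := ih
    refine ⟨nxF4 j i, (tcF4_inv j hj i i.2).1, ?_⟩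
    have h := hedge j hj i i.2
    have e : sF4 (i : ℕ) = CoxeterMatrix.F₄.toCoxeterSystem.simple i := by
      unfold sF4
      rw [dif_pos i.2]
      rfl
    rw [e] at h
    exact h

theorem blkF4_bw : ∀ k < 4, BW blkE6 (blkF4.getD k []) := by
  intro k hk
  interval_cases k
  · exact ⟨[[1]], by decide, rfl⟩
  · exact ⟨[[3]], by decide, rfl⟩
  · exact ⟨[[2, 4]], by decide, rfl⟩
  · exact ⟨[[0, 5]], by decide, rfl⟩

theorem bw_append {blocks : List (List ℕ)} {w w' : List ℕ} (hw : BW blocks w) (hw' : BW blocks w') :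
    BW blocks (w ++ w') := by
  obtain ⟨bs, hbs, rfl⟩ := hw
  obtain ⟨bs', hbs', rfl⟩ := hw'
  refine ⟨bs ++ bs', ?_, by simp⟩
  intro L hL
  rcases List.mem_append.mp hL with h | h
  · exact hbs L h
  · exact hbs' L h

theorem repF4_bw (w : List ℕ) (hw : ∀ k ∈ w, k < 4) : BW blkE6 (repF4 w) := by
  induction w with
  | nil => exact ⟨[], by simp, rfl⟩
  | cons k w ih =>
    have e : repF4 (k :: w) = blkF4.getD k [] ++ repF4 w := by simp [repF4]
    rw [e]
    exact bw_append (blkF4_bw k (hw k (List.mem_cons_self ..))) (ih (fun k' hk' => hw k' (List.mem_cons_of_mem _ hk')))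

theorem replicate_bw {blocks : List (List ℕ)} {w : List ℕ} (hw : BW blocks w) (c : ℕ) :
    BW blocks ((List.replicate c w).flatten) := by
  induction c with
  | zero => exact ⟨[], by simp, rfl⟩
  | succ c ih =>
    rw [List.replicate_succ, List.flatten_cons]
    exact bw_append hw ih

/-- `N¹/H¹` is the Coxeter group of type `F₄`. -/
theorem twE6_weyl {F : Type*} [Field F] [Fintype F] {q : ℕ} (hq : IsPrimePow q) (hF : Fintype.card F = q ^ 2) :
    ∃ φ : ↥(chevE6.monomialSubgroup F ⊓ twistedE6 F q) →* (CoxeterMatrix.F₄).Group, Function.Surjective φ ∧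
      φ.ker = (chevE6.diagonalSubgroup F ⊓ twistedE6 F q).subgroupOf
        (chevE6.monomialSubgroup F ⊓ twistedE6 F q) := by
  classical
  obtain ⟨T, B, hG, hblk, hcard, -, -, -, -⟩ := tw_E6 hq hF
  have hV : SemV chevE6 F := trin_E6.semV chk_E6.tblOK F
  have hP := packB_E6 F
  have hS := (packB_E6 F).sem
  have hT := (packB_E6 F).tab
  have hbw : BW B.blocks w0bE6 := by rw [hblk]; exact twE6_bw
  have hHB : chevE6.diagonalSubgroup F ≤ chevE6.borelSubgroup F := le_sup_right
  -- the normal subgroup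
  have hnorm : ((chevE6.diagonalSubgroup F ⊓ twistedE6 F q).subgroupOf
      (chevE6.monomialSubgroup F ⊓ twistedE6 F q)).Normal := by
    constructor
    intro h hh n
    rw [Subgroup.mem_subgroupOf] at hh ⊢
    rw [Subgroup.coe_mul, Subgroup.coe_mul, Subgroup.coe_inv]
    refine ⟨?_, Subgroup.mul_mem _ (Subgroup.mul_mem _ n.2.2 hh.2) (Subgroup.inv_mem _ n.2.2)⟩
    exact (Subgroup.mem_normalizer_iff.mp
      (monomial_le_normalizer_diag hS hP.semN hT hP.etaNeg n.2.1) _).mp hh.1
  -- block words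
  have hlt : ∀ w, BW blkE6 w → ∀ i ∈ w, i < chevE6.rank := by
    intro w hw
    have hw' : BW B.blocks w := by rw [hblk]; exact hw
    exact hw'.lt B
  have hmem : ∀ w, BW blkE6 w → nWU hS w ∈ chevE6.monomialSubgroup F ⊓ twistedE6 F q := by
    intro w hw
    have hw' : BW B.blocks w := by rw [hblk]; exact hw
    exact ⟨nWU_mem hS hT w (hw'.lt B), nWU_bw_mem hP B _ hG.nmem w hw'⟩
  let g : List ℕ → ↥(chevE6.monomialSubgroup F ⊓ twistedE6 F q) ⧸
      ((chevE6.diagonalSubgroup F ⊓ twistedE6 F q).subgroupOf (chevE6.monomialSubgroup F ⊓ twistedE6 F q)) :=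
    fun w => if h : nWU hS w ∈ chevE6.monomialSubgroup F ⊓ twistedE6 F q then
      QuotientGroup.mk ⟨nWU hS w, h⟩ else 1
  have hg : ∀ w (hw : BW blkE6 w), g w = QuotientGroup.mk ⟨nWU hS w, hmem w hw⟩ := by
    intro w hw
    simp only [g, dif_pos (hmem w hw)]
  have hgmul : ∀ w w', BW blkE6 w → BW blkE6 w' → g (w ++ w') = g w * g w' := by
    intro w w' hw hw'
    rw [hg _ (bw_append hw hw'), hg w hw, hg w' hw', ← QuotientGroup.mk_mul]
    congr 1
    exact Subtype.ext (nWU_append hS w w')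
  have hg1 : ∀ w, BW blkE6 w → (g w = 1 ↔ nWU hS w ∈ chevE6.diagonalSubgroup F) := by
    intro w hw
    rw [hg w hw, QuotientGroup.eq_one_iff, Subgroup.mem_subgroupOf]
    exact ⟨fun h => h.1, fun h => ⟨h, (hmem w hw).2⟩⟩
  have hnil : nWU hS ([] : List ℕ) = 1 := by simp [nWU]
  have hg1' : ∀ w, BW blkE6 w → (g w = 1 ↔ ∀ s < chevE6.nroots, reflW chevE6 w s = reflW chevE6 [] s) := by
    intro w hw
    rw [hg1 w hw]
    constructor
    · intro h
      apply refl_eq_of_dcB_word_eq hP w [] (hlt w hw) (by simp)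
      rw [hnil]
      have := dcB_mul_right (D := chevE6) (F := F) (hHB h) 1
      rwa [one_mul] at this
    · intro h
      have := nWU_rel_of_refl_eq hP w [] (hlt w hw) (by simp) h
      rwa [hnil, inv_one, mul_one] at this
  have hgnil : g [] = 1 := (hg1' [] ⟨[], by simp, rfl⟩).mpr (fun s _ => rfl)
  have hpow : ∀ w, BW blkE6 w → ∀ c, g w ^ c = g ((List.replicate c w).flatten) := by
    intro w hw c
    induction c with
    | zero => rw [pow_zero]; exact hgnil.symm
    | succ c ih =>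
      rw [pow_succ', ih, List.replicate_succ, List.flatten_cons]
      exact (hgmul _ _ hw (replicate_bw hw c)).symm
  -- the homomorphism from the Coxeter group
  have hlift : CoxeterMatrix.F₄.IsLiftable (fun i : Fin 4 => g (blkF4.getD i [])) := by
    intro i i'
    show (g (blkF4.getD i []) * g (blkF4.getD i' [])) ^ CoxeterMatrix.F₄ i i' = 1
    have hb := blkF4_bw i i.2
    have hb' := blkF4_bw i' i'.2
    have e : CoxeterMatrix.F₄ i i' = mF4 i i' := mF4_eq i i' i.2 i'.2
    rw [e, ← hgmul _ _ hb hb', hpow _ (bw_append hb hb'), hg1' _ (replicate_bw (bw_append hb hb') _)]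
    intro s hs
    rw [reflW_eq tabT_E6 _ (hlt _ (replicate_bw (bw_append hb hb') _)) s hs]
    exact tcF4_rel i i.2 i' i'.2 s hs
  have hψs : ∀ k (hk : k < 4),
      CoxeterMatrix.F₄.toCoxeterSystem.lift ⟨_, hlift⟩ (sF4 k) = g (blkF4.getD k []) := by
    intro k hk
    unfold sF4
    rw [dif_pos hk]
    exact CoxeterMatrix.F₄.toCoxeterSystem.lift_apply_simple hlift ⟨k, hk⟩
  generalize CoxeterMatrix.F₄.toCoxeterSystem.lift ⟨_, hlift⟩ = ψ at hψs
  have hψw : ∀ w : List ℕ, (∀ k ∈ w, k < 4) → ψ ((w.map sF4).prod) = g (repF4 w) := by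
    intro w
    induction w with
    | nil => intro _; simp only [List.map_nil, List.prod_nil, map_one]; exact hgnil.symm
    | cons k w ih =>
      intro hw
      have hk := hw k (List.mem_cons_self ..)
      have hw' : ∀ k' ∈ w, k' < 4 := fun k' hk' => hw k' (List.mem_cons_of_mem _ hk')
      have e : repF4 (k :: w) = blkF4.getD k [] ++ repF4 w := by simp [repF4]
      rw [List.map_cons, List.prod_cons, map_mul, hψs k hk, ih hw', e,
        hgmul _ _ (blkF4_bw k hk) (repF4_bw w hw')]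
  have hinj : Function.Injective ψ := by
    rw [injective_iff_map_eq_one]
    intro x hx
    obtain ⟨i, hi, rfl⟩ := coxF4_forms x
    have hiL : i < tcWordsF4.length := by rw [tcF4_w0.2]; exact hi
    have hwm : tcWordsF4.getD i [] ∈ tcWordsF4 := by
      rw [List.getD_eq_getElem _ _ hiL]; exact List.getElem_mem _
    have hwlt := tcF4_words_lt _ hwm
    rw [hψw _ hwlt] at hx
    by_cases h0 : i = 0
    · rw [h0, tcF4_w0.1]; simp
    · exfalso
      have hrefl := (hg1' _ (repF4_bw _ hwlt)).mp hx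
      have e : (List.range 1152).getD i 0 = i := by
        rw [List.getD_eq_getElem _ _ (by simpa using hi)]; simp
      have hmem' := zip_getD_mem (List.range 1152) tcWordsF4 0 [] i (by simpa using hi) hiL
      rw [e] at hmem'
      apply tcF4_code _ hmem' (Nat.pos_of_ne_zero h0)
      have hrl := hlt _ (repF4_bw _ hwlt)
      show codeWE6 (repF4 (tcWordsF4.getD i [])) = codeWE6 []
      unfold codeWE6
      rw [← reflW_eq tabT_E6 _ hrl 46 (by decide), ← reflW_eq tabT_E6 _ hrl 39 (by decide),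
        ← reflW_eq tabT_E6 _ hrl 56 (by decide), ← reflW_eq tabT_E6 _ hrl 42 (by decide),
        hrefl 46 (by decide), hrefl 39 (by decide), hrefl 56 (by decide), hrefl 42 (by decide)]
      rfl
  have hrange : ∀ bs : List (List ℕ), (∀ L ∈ bs, L ∈ blkE6) → ∃ x, ψ x = g bs.flatten := by
    intro bs
    induction bs with
    | nil =>
      intro _
      exact ⟨1, by rw [map_one]; exact hgnil.symm⟩
    | cons L bs ih =>
      intro hbs
      obtain ⟨x, hx⟩ := ih (fun L' hL' => hbs L' (List.mem_cons_of_mem _ hL'))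
      have hL := hbs L (List.mem_cons_self ..)
      have hbL : BW blkE6 L := ⟨[L], by simpa using hL, by simp⟩
      have hbr : BW blkE6 bs.flatten := ⟨bs, fun L' hL' => hbs L' (List.mem_cons_of_mem _ hL'), rfl⟩
      rw [List.flatten_cons, hgmul _ _ hbL hbr, ← hx]
      simp only [blkE6, List.mem_cons, List.not_mem_nil, or_false] at hL
      rcases hL with rfl | rfl | rfl | rfl
      · exact ⟨sF4 0 * x, by rw [map_mul, hψs 0 (by norm_num)]; rfl⟩
      · exact ⟨sF4 1 * x, by rw [map_mul, hψs 1 (by norm_num)]; rfl⟩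
      · exact ⟨sF4 3 * x, by rw [map_mul, hψs 3 (by norm_num)]; rfl⟩
      · exact ⟨sF4 2 * x, by rw [map_mul, hψs 2 (by norm_num)]; rfl⟩
  have hsurj : Function.Surjective ψ := by
    intro y
    obtain ⟨n, rfl⟩ := QuotientGroup.mk_surjective y
    obtain ⟨h, hh, hhK, w, hw, e⟩ := tw_mono hP hV tabT_E6 tabL_E6 B hG w0bE6 tabW_E6b hbw n.1 n.2.1 n.2.2
    have hw' : BW blkE6 w := by rw [← hblk]; exact hw
    have hhN : h ∈ chevE6.monomialSubgroup F ⊓ twistedE6 F q := ⟨diagonal_le_monomial hh, hhK⟩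
    have e1 : n = ⟨h, hhN⟩ * ⟨nWU hS w, hmem w hw'⟩ := Subtype.ext e
    have e2 : (QuotientGroup.mk n : _ ⧸ ((chevE6.diagonalSubgroup F ⊓ twistedE6 F q).subgroupOf
        (chevE6.monomialSubgroup F ⊓ twistedE6 F q))) = g w := by
      rw [hg w hw', e1, QuotientGroup.mk_mul]
      have : (QuotientGroup.mk (⟨h, hhN⟩ : ↥(chevE6.monomialSubgroup F ⊓ twistedE6 F q)) :
          _ ⧸ ((chevE6.diagonalSubgroup F ⊓ twistedE6 F q).subgroupOf
            (chevE6.monomialSubgroup F ⊓ twistedE6 F q))) = 1 := by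
        rw [QuotientGroup.eq_one_iff, Subgroup.mem_subgroupOf]
        exact ⟨hh, hhK⟩
      rw [this, one_mul]
    obtain ⟨bs, hbs, rfl⟩ := hw'
    obtain ⟨x, hx⟩ := hrange bs hbs
    exact ⟨x, by rw [hx, e2]⟩
  refine ⟨(MulEquiv.ofBijective ψ ⟨hinj, hsurj⟩).symm.toMonoidHom.comp (QuotientGroup.mk' _), ?_, ?_⟩
  · exact (MulEquiv.ofBijective ψ ⟨hinj, hsurj⟩).symm.surjective.comp (QuotientGroup.mk'_surjective _)
  · ext x
    rw [MonoidHom.mem_ker, MonoidHom.comp_apply]
    show (MulEquiv.ofBijective ψ ⟨hinj, hsurj⟩).symm (QuotientGroup.mk' _ x) = 1 ↔ _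
    rw [MulEquiv.map_eq_one_iff, QuotientGroup.mk'_apply, QuotientGroup.eq_one_iff]

end Cfsg.Agent.H23
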